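import Cfsg.Agent.AutPE.StdFrame
import Cfsg.Agent.AutPE.ModInner
import Cfsg.Agent.AutPSL.FieldAut
set_option autoImplicit false
set_option quotPrecheck false
set_option linter.unusedSectionVars false

/-!
Splitting of the class of a frame over inner automorphisms.
-/

namespace CfsgLib.AutPE

open QuadraticMap hiding proj
open Matrix
open CfsgLib.Forms CfsgLib.AutPO

/-- Counting classes through a quotient with a cyclic image of the centraliser of order at most two. -/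
theorem split_count_two {X : Type*} [Group X] {H K : Subgroup X} [K.Normal] (hKH : K ≤ H) {x g : X}
    {A : Type*} [CommGroup A] (φ : ↥H →* A) (hφ : Function.Surjective φ) (hker : φ.ker = K.subgroupOf H)
    (hgH : g ∈ H) (hgc : g * x = x * g) (hg2 : g * g ∈ K)
    (hall : ∀ c ∈ H, c * x = x * c → c ∈ K ∨ c * g⁻¹ ∈ K) :
    (g ∈ K → Cfsg.splitClassCount H K x = Nat.card A) ∧
    (g ∉ K → Cfsg.splitClassCount H K x * 2 = Nat.card A) := by
  have hk : ∀ h : ↥H, φ h = 1 ↔ (h : X) ∈ K := fun h => by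
    rw [← MonoidHom.mem_ker, hker, Subgroup.mem_subgroupOf]
  have hcount : Cfsg.splitClassCount H K x = Nat.card (A ⧸ Subgroup.zpowers (φ ⟨g, hgH⟩)) := by
    refine CfsgLib.AutPSL.splitClassCount_eq_card H K x hKH ((QuotientGroup.mk' _).comp φ)
      ((QuotientGroup.mk'_surjective _).comp hφ) fun h => ?_
    rw [MonoidHom.comp_apply, QuotientGroup.mk'_apply, QuotientGroup.eq_one_iff, Subgroup.mem_zpowers_iff]
    constructor
    · rintro ⟨i, hi⟩
      have h1 : ((h * (⟨g, hgH⟩ : ↥H) ^ (-i) : ↥H) : X) ∈ K := by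
        rw [← hk, map_mul, map_zpow, ← hi, ← _root_.zpow_add, add_neg_cancel, zpow_zero]
      refine ⟨_, h1, g ^ i, ⟨H.zpow_mem hgH i, Subgroup.mem_centralizer_singleton_iff.2
        (Commute.zpow_left (show Commute g x from hgc) i).eq⟩, ?_⟩
      simp
    · rintro ⟨k, hkk, c, ⟨hc, hcc⟩, e⟩
      have e' : h = ⟨k, hKH hkk⟩ * ⟨c, hc⟩ := Subtype.ext e
      rw [e', map_mul, (hk ⟨k, hKH hkk⟩).2 hkk, one_mul]
      rcases hall c hc (Subgroup.mem_centralizer_singleton_iff.1 hcc) with h1 | h1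
      · exact ⟨0, by rw [zpow_zero, (hk ⟨c, hc⟩).2 h1]⟩
      · refine ⟨1, ?_⟩
        have h2 := (hk (⟨c, hc⟩ * ⟨g, hgH⟩⁻¹)).2 h1
        rw [map_mul, map_inv, mul_inv_eq_one] at h2
        rw [zpow_one, h2]
  refine ⟨fun h => ?_, fun h => ?_⟩
  · rw [hcount, (hk ⟨g, hgH⟩).2 h, Subgroup.zpowers_one_eq_bot]
    exact Nat.card_congr (QuotientGroup.quotientBot (G := A)).toEquiv
  · have hne : φ ⟨g, hgH⟩ ≠ 1 := fun e => h ((hk _).1 e)
    have h2 : φ ⟨g, hgH⟩ ^ 2 = 1 := by rw [pow_two, ← map_mul, hk]; exact hg2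
    have hcard := Subgroup.card_eq_card_quotient_mul_card_subgroup (Subgroup.zpowers (φ ⟨g, hgH⟩))
    rw [Nat.card_zpowers, orderOf_eq_prime h2 hne] at hcard
    rw [hcount, hcard]

variable {F : Type*} [Field F] [Fintype F] {F₀ : Type*} [Field F₀] [Fintype F₀] {ι κ : Type} [Fintype ι]
  [DecidableEq ι] [Fintype κ] [DecidableEq κ]
  {Q : QuadraticForm F (ι → F)} {Q₀ : QuadraticForm F₀ (κ → F₀)} {σ : RingAut F} {φ : F₀ →+* F}

/-- In a quadratic extension every element of the small field is a square. -/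
theorem isSquare_rat (hcard : Fintype.card F = Fintype.card F₀ ^ 2) (c : F₀) : IsSquare (φ c) := by
  by_cases hc2 : ringChar F = 2
  · exact FiniteField.isSquare_of_char_two hc2 _
  by_cases hc : c = 0
  · exact ⟨0, by rw [hc, map_zero, mul_zero]⟩
  rw [FiniteField.isSquare_iff hc2 ((map_ne_zero φ).2 hc), ← map_pow, hcard]
  have hodd : Odd (Fintype.card F₀) := by
    have h1 : Odd (Fintype.card F) := Nat.odd_iff.2 (FiniteField.odd_card_of_char_ne_two hc2)
    rw [hcard] at h1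
    exact (Nat.odd_pow_iff two_ne_zero).1 h1
  obtain ⟨j, hj⟩ := hodd
  have he : Fintype.card F₀ ^ 2 / 2 = (Fintype.card F₀ - 1) * (j + 1) := by
    rw [hj, show (2 * j + 1) ^ 2 = 1 + 2 * (2 * j * (j + 1)) by ring, Nat.add_mul_div_left _ _ two_pos,
      show 2 * j + 1 - 1 = 2 * j by omega]
    omega
  rw [he, pow_mul, FiniteField.pow_card_sub_one_eq_one c hc, one_pow, map_one]

/-- An element centralising the frame inside the sign kernel comes from the sign kernel. -/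
theorem exists_lift_sign (hQ : GH Q) (hQ₀ : GH Q₀) (hg : Simil.Good Q) (hg₀ : Simil.Good Q₀) (D : Frame Q Q₀ σ φ)
    (hfix : ∀ c, σ c = c ↔ c ∈ Set.range φ) {c : MulAut (Cfsg.POmega F ⇑Q)}
    (hc : c ∈ (Simil.sign hg).ker.map (Simil.act Q)) (hcc : c * D.aut = D.aut * c) :
    ∃ x : Simil.Sim Q₀, Simil.sign hg₀ x = 1 ∧ D.T x = c := by
  obtain ⟨g, hgs, rfl⟩ := hc
  obtain ⟨x, hx⟩ := D.exists_T_of_commute hfix hQ hQ₀ g hcc
  refine ⟨x, Units.ext (φ.injective ?_), hx⟩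
  have h1 := sign_eq_one_of_act hQ hg (g := g⁻¹ * D.lift x)
    (by rw [map_mul, map_inv, show Simil.act Q (D.lift x) = Simil.act Q g from hx, inv_mul_cancel])
  rw [map_mul, map_inv, MonoidHom.mem_ker.1 hgs, inv_one, one_mul] at h1
  rw [← D.sign_lift hg hg₀, h1, Units.val_one, Units.val_one, map_one]

/-- Over a quadratic extension the square-multiplier part of the small group is inner. -/
theorem T_mem_inn_of_square (hQ : GH Q) (hQ₀ : GH Q₀) (hg₀ : Simil.Good Q₀) (D : Frame Q Q₀ σ φ)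
    (hsq : ∀ c : F₀, IsSquare (φ c)) {x : Simil.Sim Q₀} (hx : Simil.sign hg₀ x = 1)
    (hμ : IsSquare (Simil.mult hg₀ x : F₀)) : D.T x ∈ Cfsg.Inn (Cfsg.POmega F ⇑Q) := by
  obtain ⟨j, hj, e⟩ := exists_iso_of_sign hg₀ hx hμ
  have h1 : D.T x = D.T (Simil.ofIso j) := by
    have : x⁻¹ * Simil.ofIso j ∈ D.T.ker := by
      rw [D.ker_T hQ hQ₀, MonoidHom.mem_ker, map_mul, map_inv, ← e, inv_mul_cancel]
    rw [MonoidHom.mem_ker, map_mul, map_inv, inv_mul_eq_one] at this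
    exact this
  obtain ⟨l, rfl⟩ := exists_eq_listGL hQ₀.nondeg (hd hQ₀) j
  have hev : Even l.length := (Simil.det_one_iff_even hg₀ (isoEquiv_listGL l)).1 hj
  obtain ⟨l', hlen, hval, hl⟩ := D.lift_list l
  rw [h1]
  refine (Simil.mem_inn_iff _).2 ⟨listGL Q l', ?_, congrArg (Simil.act Q) hl⟩
  rw [listGL_mem_Omega hQ.nondeg (hd hQ), hlen, hval]
  exact ⟨hev, (hev.isSquare_pow D.b).mul (hsq _)⟩

/-- Over a quadratic extension the centraliser meets the classes in at most two. -/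
theorem centralizer_mod_inn (hQ : GH Q) (hQ₀ : GH Q₀) (hg : Simil.Good Q) (hg₀ : Simil.Good Q₀) (D : Frame Q Q₀ σ φ)
    (hfix : ∀ c, σ c = c ↔ c ∈ Set.range φ) (hsq : ∀ c : F₀, IsSquare (φ c)) {g : Simil.Sim Q}
    (hgs : Simil.sign hg g = 1) (hgc : ∀ v, semi D.g σ ((g : GL ι F).1 *ᵥ v) = (g : GL ι F).1 *ᵥ semi D.g σ v)
    {μ : F₀} (hμ : (Simil.mult hg g : F) = φ μ) (hμns : ¬ IsSquare μ) :
    Simil.act Q g * D.aut = D.aut * Simil.act Q g ∧
    Simil.act Q g * Simil.act Q g ∈ Cfsg.Inn (Cfsg.POmega F ⇑Q) ∧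
    ∀ c ∈ (Simil.sign hg).ker.map (Simil.act Q), c * D.aut = D.aut * c →
      c ∈ Cfsg.Inn (Cfsg.POmega F ⇑Q) ∨ c * (Simil.act Q g)⁻¹ ∈ Cfsg.Inn (Cfsg.POmega F ⇑Q) := by
  obtain ⟨x₁, hx₁⟩ := D.exists_lift_of_commute hfix hQ₀ g hgc
  have hs₁ : Simil.sign hg₀ x₁ = 1 := Units.ext (φ.injective (by
    rw [← D.sign_lift hg hg₀, hx₁, hgs, Units.val_one, Units.val_one, map_one]))
  have hm₁ : (Simil.mult hg₀ x₁ : F₀) = μ := φ.injective (by rw [← D.mult_lift hg hg₀, hx₁, hμ])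
  have hT : D.T x₁ = Simil.act Q g := congrArg (Simil.act Q) hx₁
  refine ⟨hT ▸ (D.commute_T hfix x₁).eq, ?_, fun c hc hcc => ?_⟩
  · rw [← hT, ← map_mul]
    exact T_mem_inn_of_square hQ hQ₀ hg₀ D hsq (by rw [map_mul, hs₁, one_mul])
      (by rw [map_mul, Units.val_mul]; exact ⟨_, rfl⟩)
  · obtain ⟨x, hx, rfl⟩ := exists_lift_sign hQ hQ₀ hg hg₀ D hfix hc hcc
    by_cases hxs : IsSquare (Simil.mult hg₀ x : F₀)
    · exact Or.inl (T_mem_inn_of_square hQ hQ₀ hg₀ D hsq hx hxs)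
    · refine Or.inr ?_
      rw [← hT, ← map_inv, ← map_mul]
      refine T_mem_inn_of_square hQ hQ₀ hg₀ D hsq (by rw [map_mul, map_inv, hx, hs₁, inv_one, one_mul]) ?_
      rw [map_mul, map_inv, Units.val_mul, Units.val_inv_eq_inv_val,
        isSquare_mul_iff' (Simil.mult hg₀ x).ne_zero (inv_ne_zero (Simil.mult hg₀ x₁).ne_zero), isSquare_inv, hm₁]
      exact iff_of_false hxs hμns

/-- In an extension of odd degree non-squares stay non-squares. -/
theorem not_isSquare_rat (hfix : ∀ c, σ c = c ↔ c ∈ Set.range φ) (hodd : Odd (orderOf σ)) {c : F₀}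
    (hc : ¬ IsSquare c) : ¬ IsSquare (φ c) := by
  rintro ⟨s, hs⟩
  have hσs : σ s = s ∨ σ s = -s := by
    refine mul_self_eq_mul_self_iff.1 ?_
    rw [← map_mul, ← hs, (hfix _).2 ⟨c, rfl⟩]
  have hfs : σ s = s := by
    rcases hσs with h | h
    · exact h
    · have h2 : ∀ i, (σ ^ (2 * i)) s = s := by
        intro i
        induction i with
        | zero => simp
        | succ i ih => rw [mul_add, mul_one, pow_add, pow_two, RingAut.mul_apply, RingAut.mul_apply, h, map_neg, h, neg_neg, ih]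
      obtain ⟨j, hj⟩ := hodd
      have h4 : (σ ^ orderOf σ) s = s := by rw [pow_orderOf_eq_one]; rfl
      rw [hj, pow_succ, RingAut.mul_apply] at h4
      exact (σ ^ (2 * j)).injective (h4.trans (h2 j).symm)
  obtain ⟨d, rfl⟩ := (hfix s).1 hfs
  exact hc ⟨d, φ.injective (by rw [map_mul]; exact hs)⟩

/-- Over an extension of odd degree the class does not split. -/
theorem split_one_of_odd (hQ : GH Q) (hQ₀ : GH Q₀) (hg : Simil.Good Q) (hg₀ : Simil.Good Q₀) (D : Frame Q Q₀ σ φ)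
    (hfix : ∀ c, σ c = c ↔ c ∈ Set.range φ) (hodd : Odd (orderOf σ)) {x₀ : Simil.Sim Q₀}
    (hx₀ : Simil.sign hg₀ x₀ = 1) (hx₀μ : ¬ IsSquare (Simil.mult hg₀ x₀ : F₀)) :
    Cfsg.splitClassCount ((Simil.sign hg).ker.map (Simil.act Q)) (Cfsg.Inn (Cfsg.POmega F ⇑Q)) D.aut = 1 := by
  have hT : ∀ x, Simil.sign hg₀ x = 1 →
      D.T x ∈ (Simil.sign hg).ker.map (Simil.act Q) ⊓ Subgroup.centralizer {D.aut} := fun x hx =>
    ⟨D.map_odd hg hg₀ hQ₀ x ⟨x, MonoidHom.mem_ker.2 hx, rfl⟩,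
      Subgroup.mem_centralizer_singleton_iff.2 (D.commute_T hfix x).eq⟩
  have hsq : ∀ g : Simil.Sim Q, Simil.sign hg g = 1 → IsSquare (Simil.mult hg g : F) →
      ∃ k ∈ Cfsg.Inn (Cfsg.POmega F ⇑Q),
        ∃ c ∈ (Simil.sign hg).ker.map (Simil.act Q) ⊓ Subgroup.centralizer {D.aut}, Simil.act Q g = k * c := by
    intro g h1 h2
    obtain ⟨j, hj, e⟩ := exists_iso_of_sign hg h1 h2
    obtain ⟨K, hKd, hK⟩ := Simil.exists_pair_not_mem hg₀
    obtain ⟨l, rfl⟩ := exists_eq_listGL hQ₀.nondeg (hd hQ₀) K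
    have hev : Even l.length := (Simil.det_one_iff_even hg₀ (isoEquiv_listGL l)).1 hKd
    have hns : ¬ IsSquare (valueProd Q₀ l) := fun h => hK ((listGL_mem_Omega hQ₀.nondeg (hd hQ₀) l).2 ⟨hev, h⟩)
    obtain ⟨l', hlen, hval, hl⟩ := D.lift_list l
    have hev' : Even l'.length := hlen ▸ hev
    have hK' : listGL Q l' ∉ Cfsg.Omega F ⇑Q := fun h => by
      have h3 := ((listGL_mem_Omega hQ.nondeg (hd hQ) l').1 h).2
      rw [hval, isSquare_mul_iff' (pow_ne_zero _ D.hb) ((map_ne_zero φ).2 (valueProd_ne_zero l))] at h3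
      exact not_isSquare_rat hfix hodd hns (h3.1 (hev.isSquare_pow D.b))
    have hKd' := (Simil.det_one_iff_even hg (isoEquiv_listGL l')).2 hev'
    rcases Simil.special_dichotomy hg hKd' hK' hj with hm | hm
    · exact ⟨_, (Simil.mem_inn_iff _).2 ⟨j, hm, rfl⟩, 1, one_mem _, by rw [mul_one, e]⟩
    · have hKs : Simil.sign hg₀ (Simil.ofIso (listGL Q₀ l)) = 1 := Units.ext (by
        rw [Simil.sign_val hg₀, Simil.mult_ofIso hg₀, Units.val_one, one_pow, div_one]; exact hKd)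
      refine ⟨_, (Simil.mem_inn_iff _).2 ⟨_, hm, rfl⟩, (D.T (Simil.ofIso (listGL Q₀ l)))⁻¹,
        inv_mem (hT _ hKs), ?_⟩
      rw [show D.T (Simil.ofIso (listGL Q₀ l)) = Simil.act Q (Simil.ofIso (listGL Q l')) from congrArg (Simil.act Q) hl,
        map_mul, map_mul, mul_inv_cancel_right, e]
  haveI := innNormal (Cfsg.POmega F ⇑Q)
  rw [CfsgLib.AutPSL.splitClassCount_eq_card (A := PUnit.{1}) _ _ _ (isProper_odd hQ hg).inn_le 1
    (fun _ => ⟨1, Subsingleton.elim _ _⟩) fun h => ?_, Nat.card_eq_fintype_card, Fintype.card_punit]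
  refine iff_of_true (Subsingleton.elim _ _) ?_
  obtain ⟨g, hgs, e⟩ := h.2
  by_cases hgμ : IsSquare (Simil.mult hg g : F)
  · obtain ⟨k, hk, c, hc, e'⟩ := hsq g (MonoidHom.mem_ker.1 hgs) hgμ
    exact ⟨k, hk, c, hc, e.symm.trans e'⟩
  · have hl : Simil.sign hg (D.lift x₀) = 1 := Units.ext (by
      rw [D.sign_lift hg hg₀, hx₀, Units.val_one, map_one, Units.val_one])
    obtain ⟨k, hk, c, hc, e'⟩ := hsq (g * (D.lift x₀)⁻¹)
      (by rw [map_mul, map_inv, MonoidHom.mem_ker.1 hgs, hl, inv_one, one_mul]) (by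
        rw [map_mul, map_inv, Units.val_mul, Units.val_inv_eq_inv_val,
          isSquare_mul_iff' (Simil.mult hg g).ne_zero (inv_ne_zero (Simil.mult hg _).ne_zero), isSquare_inv,
          D.mult_lift hg hg₀]
        exact iff_of_false hgμ (not_isSquare_rat hfix hodd hx₀μ))
    refine ⟨k, hk, c * D.T x₀, mul_mem hc (hT _ hx₀), ?_⟩
    rw [← mul_assoc, ← e', ← e, show D.T x₀ = Simil.act Q (D.lift x₀) from rfl, map_mul, map_inv,
      inv_mul_cancel_right]

/-- In characteristic two nothing splits. -/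
theorem split_inn {X : Type*} [Group X] (H : Subgroup X) [H.Normal] (x : X) :
    Cfsg.splitClassCount H H x = 1 := by
  rw [CfsgLib.AutPSL.splitClassCount_eq_card (A := PUnit.{1}) H H x le_rfl 1
    (fun _ => ⟨1, Subsingleton.elim _ _⟩) fun h => ?_, Nat.card_eq_fintype_card, Fintype.card_punit]
  exact iff_of_true (Subsingleton.elim _ _) ⟨h, h.2, 1, one_mem _, (mul_one _).symm⟩

end CfsgLib.AutPE
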