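import Cfsg.Agent.AutPE.FieldMinus
import Cfsg.Agent.AutPE.Split
import Cfsg.Agent.AutPE.GraphStd
set_option autoImplicit false
set_option quotPrecheck false
set_option linter.unusedSectionVars false

/-!
The class of field automorphisms of prime order of the minus-type group.
-/

namespace CfsgLib.AutPE

open QuadraticMap hiding proj
open Matrix
open CfsgLib.Forms CfsgLib.AutPO

universe u v

variable {F : Type u} [Field F] [Fintype F] {m : ℕ} {a b : F}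

local notation "Pm" => classSub (⇑(quadMinus F m a b)) (Cfsg.PreservesSingularClassesMinus m a b)
local notation "InnM" => Cfsg.Inn (Cfsg.POmega F ⇑(quadMinus F m a b))

theorem field_facts_minus {p f : ℕ} [Fact p.Prime] (hF : Fintype.card F = p ^ f) (hf : 1 ≤ f) (hm : 3 ≤ m)
    (hab : ∀ z₁ z₂ : F, z₁ ^ 2 + a * z₁ * z₂ + b * z₂ ^ 2 = 0 → z₁ = 0 ∧ z₂ = 0)
    {r : ℕ} (hr : r.Prime) (F₀ : Type v) [Field F₀] [Fintype F₀] (hF₀ : Fintype.card F₀ = p ^ (f / r))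
    {x : MulAut (Cfsg.POmega F ⇑(quadMinus F m a b))} (hτ : tau (gh_minus hm hab) x ≠ 1)
    (hτ2 : orderOf (tau (gh_minus hm hab) x) ≠ 2) (hxr : orderOf x = r) :
    Odd r ∧ r ∣ f ∧
    (∃ a₀ b₀ : F₀, (∀ z₁ z₂ : F₀, z₁ ^ 2 + a₀ * z₁ * z₂ + b₀ * z₂ ^ 2 = 0 → z₁ = 0 ∧ z₂ = 0) ∧
      Nonempty (↥(Pm ⊓ Subgroup.centralizer {x}) ≃*
        ↥(classSub (⇑(quadMinus F₀ m a₀ b₀)) (Cfsg.PreservesSingularClassesMinus m a₀ b₀)))) ∧
    Cfsg.splitClassCount Pm InnM x = 1 := by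
  set σ := tau (gh_minus hm hab) x with hσdef
  haveI : Fact r.Prime := ⟨hr⟩
  have hxr' : x ^ r = 1 := orderOf_dvd_iff_pow_eq_one.1 (dvd_of_eq hxr)
  have hσ : orderOf σ = r := orderOf_eq_prime (by rw [hσdef, ← map_pow, hxr', map_one]) hτ
  have hrodd : Odd r := hr.odd_of_ne_two (hσ ▸ hτ2)
  obtain ⟨hrf, hfield⟩ := CfsgLib.AutPSL.fixed_field_facts (Fact.out : p.Prime) hF σ
  rw [hσ] at hrf hfield
  obtain ⟨φ, hfix⟩ := hfield F₀ hF₀
  obtain ⟨a₀, b₀, hab₀⟩ := exists_anisotropic F₀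
  obtain ⟨D, hD⟩ := minus_frame hm hab hfix hab₀ x hσdef.symm (by rw [hσ, hxr'])
  have hQ₀ := gh_minus (m := m) hm hab₀
  have hP := (isInndiag_minus hm hab).proper
  refine ⟨hrodd, hrf, ⟨a₀, b₀, hab₀, ?_⟩, ?_⟩
  · rw [← hD]
    exact D.centralizer_equiv (gh_minus hm hab) hQ₀ hP (isInndiag_minus hm hab₀).proper hfix
      ((isInndiag_minus hm hab).map (isInndiag_minus hm hab₀) D)
  rw [← hD]
  rcases odd_card_or_two (F := F) with ⟨hodd, h2⟩ | h2
  · have hodd₀ : Odd (Fintype.card F₀) := by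
      rcases odd_card_or_two (F := F₀) with ⟨h, -⟩ | h
      · exact h
      · exact absurd (by rw [← map_ofNat φ 2, h, map_zero]) h2
    have hg := Simil.good_minus hodd hm hab
    have hg₀ := Simil.good_minus hodd₀ hm hab₀
    obtain ⟨x₀, hx₀, hx₀μ⟩ := exists_sign_one hg₀
    rw [show Pm = (Simil.sign hg).ker.map (Simil.act (quadMinus F m a b)) from inndiag_minus_eq hab hodd hm hg]
    exact split_one_of_odd (gh_minus hm hab) hQ₀ hg hg₀ D hfix (hσ ▸ hrodd) hx₀ hx₀μ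
  · rw [show Pm = InnM from inndiag_minus_two hab h2 hm]
    haveI := innNormal (Cfsg.POmega F ⇑(quadMinus F m a b))
    exact split_inn _ _

end CfsgLib.AutPE
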