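import Cfsg.Agent.AutPE.SplitPlus
set_option autoImplicit false
set_option quotPrecheck false
set_option linter.unusedSectionVars false

/-!
The class of involutory graph-field automorphisms of the plus-type group.
-/

namespace CfsgLib.AutPE

open QuadraticMap hiding proj
open Matrix
open CfsgLib.Forms CfsgLib.AutPO

universe u v

variable {F : Type u} [Field F] [Fintype F] {m : ℕ}

local notation "Pr" => classSub (⇑(quadPlus F m)) (Cfsg.PreservesSingularClasses ⇑(quadPlus F m))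
local notation "InnP" => Cfsg.Inn (Cfsg.POmega F ⇑(quadPlus F m))

theorem invol_unique {σ τ : RingAut F} (hσ : orderOf σ = 2) (hτ : orderOf τ = 2) : σ = τ := by
  classical
  haveI : Finite (RingAut F) := Finite.of_injective (fun τ => ⇑τ) DFunLike.coe_injective
  letI := Fintype.ofFinite (RingAut F)
  obtain ⟨p, hp⟩ := CharP.exists F
  haveI : Fact p.Prime := ⟨CharP.char_is_prime F p⟩
  obtain ⟨f, -, hF⟩ := FiniteField.card F p
  haveI : IsCyclic (RingAut F) := ⟨⟨frob F p, top_frob hF⟩⟩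
  have h2 : 2 ∣ Fintype.card (RingAut F) := hσ ▸ orderOf_dvd_card
  have hcard := IsCyclic.card_orderOf_eq_totient (α := RingAut F) h2
  rw [Nat.totient_two, Finset.card_eq_one] at hcard
  obtain ⟨a, ha⟩ := hcard
  have h1 : σ ∈ ({a} : Finset (RingAut F)) := ha ▸ Finset.mem_filter.2 ⟨Finset.mem_univ _, hσ⟩
  have h3 : τ ∈ ({a} : Finset (RingAut F)) := ha ▸ Finset.mem_filter.2 ⟨Finset.mem_univ _, hτ⟩
  rw [Finset.mem_singleton] at h1 h3
  rw [h1, h3]

theorem graph_field_facts {p f : ℕ} [Fact p.Prime] (hF : Fintype.card F = p ^ f) (hf : 1 ≤ f) (hm : 5 ≤ m)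
    (F₀ : Type v) [Field F₀] [Fintype F₀] (hF₀ : Fintype.card F₀ = p ^ (f / 2))
    {x : MulAut (Cfsg.POmega F ⇑(quadPlus F m))} (hτ : tau (gh_plus hm) x ≠ 1)
    (hnot : x * (fieldP (tau (gh_plus hm) x))⁻¹ ∉ Pr) (hx2 : orderOf x = 2) :
    Even f ∧
    (∀ y : MulAut (Cfsg.POmega F ⇑(quadPlus F m)), tau (gh_plus hm) y ≠ 1 →
      y * (fieldP (tau (gh_plus hm) y))⁻¹ ∉ Pr → orderOf y = 2 → Cfsg.IsConjUnder Pr x y) ∧
    (∃ a₀ b₀ : F₀, (∀ z₁ z₂ : F₀, z₁ ^ 2 + a₀ * z₁ * z₂ + b₀ * z₂ ^ 2 = 0 → z₁ = 0 ∧ z₂ = 0) ∧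
      Nonempty (↥(Pr ⊓ Subgroup.centralizer {x}) ≃*
        ↥(classSub (⇑(quadMinus F₀ (m - 1) a₀ b₀)) (Cfsg.PreservesSingularClassesMinus (m - 1) a₀ b₀)))) ∧
    (p = 2 → Cfsg.splitClassCount Pr InnP x = 1) ∧
    ((p ≠ 2 ∧ Odd m ∧ p ^ (f / 2) % 4 = 1) → Cfsg.splitClassCount Pr InnP x = 4) ∧
    ((p ≠ 2 ∧ ¬ (Odd m ∧ p ^ (f / 2) % 4 = 1)) → Cfsg.splitClassCount Pr InnP x = 2) := by
  set σ := tau (gh_plus hm) x with hσdef
  have hσ : orderOf σ = 2 := orderOf_eq_prime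
    (by rw [hσdef, ← map_pow, orderOf_dvd_iff_pow_eq_one.1 (dvd_of_eq hx2), map_one]) hτ
  obtain ⟨hrf, hfield⟩ := CfsgLib.AutPSL.fixed_field_facts (Fact.out : p.Prime) hF σ
  rw [hσ] at hrf hfield
  obtain ⟨φ, hfix⟩ := hfield F₀ hF₀
  obtain ⟨a₀, b₀, hab₀⟩ := exists_anisotropic F₀
  have hP := pr_proper (F := F) hm
  have hpow : ∀ y : MulAut (Cfsg.POmega F ⇑(quadPlus F m)), orderOf y = 2 → y ^ orderOf σ = 1 := fun y hy => by
    rw [hσ]; exact orderOf_dvd_iff_pow_eq_one.1 (dvd_of_eq hy)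
  obtain ⟨D, hD⟩ : ∃ D : Frame (quadPlus F m) (quadMinus F₀ (m - 1) a₀ b₀) σ φ, D.aut = x :=
    (plus_frames hm hfix hab₀ x hσdef.symm (hpow x hx2)).resolve_left
      fun ⟨D, hD⟩ => hnot (hD ▸ plus_frame_mem hm hfix D)
  obtain ⟨D₁, hD₁⟩ := exists_graph_frame hm hfix hab₀ (hσ.symm ▸ even_two)
  have hQ₀ := gh_minus (m := m - 1) (by omega) hab₀
  haveI := hP.normal
  haveI := innNormal (Cfsg.POmega F ⇑(quadPlus F m))
  have hsplit : Cfsg.splitClassCount Pr InnP x =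
      Cfsg.splitClassCount Pr InnP (reflA (v₀ (by omega)) (v₀_ne (by omega)) * fieldP σ) := by
    obtain ⟨g, -, e⟩ := D₁.conj_proper hP D hfix hQ₀
    rw [← hD, e, CfsgLib.AutPSL.splitClassCount_conj, hD₁]
  refine ⟨even_iff_two_dvd.2 hrf, fun y hy hynot hy2 => ?_, ⟨a₀, b₀, hab₀, ?_⟩, fun hp => ?_, ?_⟩
  · have hτy : tau (gh_plus hm) y = σ := invol_unique (orderOf_eq_prime
      (by rw [← map_pow, orderOf_dvd_iff_pow_eq_one.1 (dvd_of_eq hy2), map_one]) hy) hσ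
    rw [hτy] at hynot
    exact conj_of_coset hm hfix hab₀ hσdef.symm hτy (hpow x hx2) (hpow y hy2)
      (iff_of_false hnot hynot)
  · rw [← hD]
    exact D.centralizer_equiv (gh_plus hm) hQ₀ hP (isInndiag_minus (by omega) hab₀).proper hfix
      ((isInndiag_plus hm).map (isInndiag_minus (by omega) hab₀) D)
  · haveI : CharP F p := charP_of_card_eq_prime_pow hF
    subst hp
    rw [show Pr = InnP from inndiag_plus_two CharTwo.two_eq_zero (by omega)]
    exact split_inn _ _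
  · by_cases hp : p = 2
    · exact ⟨fun h => absurd hp h.1, fun h => absurd hp h.1⟩
    have hpo : Odd p := (Fact.out : p.Prime).odd_of_ne_two hp
    obtain ⟨h4, h2⟩ := graph_field_split hm hfix hab₀ (by rw [hF]; exact hpo.pow) hσ
      (by rw [hF, hF₀, ← pow_mul, Nat.div_mul_cancel hrf])
    rw [hF₀] at h4 h2
    exact ⟨fun h => hsplit.trans (h4 h.2), fun h => hsplit.trans (h2 h.2)⟩

end CfsgLib.AutPE
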