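import Cfsg.Agent.Chev.AutThm.OutD4
import Cfsg.Agent.Chev.Natural.D4

/-!
Automorphisms of the plus-type group in dimension eight, through the group of type D4.
-/

set_option autoImplicit false

namespace CfsgLib.AutPE.Eight

variable {F : Type*} [Field F] [Fintype F]

theorem out_congr {A B : Type*} [Group A] [Group B] (e : A ≃* B) : Nonempty (Cfsg.Out A ≃* Cfsg.Out B) := by
  refine ⟨QuotientGroup.congr (Cfsg.Inn A) (Cfsg.Inn B) (MulAut.congr e) (le_antisymm ?_ ?_)⟩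
  · rintro _ ⟨_, ⟨x, rfl⟩, rfl⟩
    exact ⟨e x, MulEquiv.ext fun y => by simp [MulAut.congr, MulAut.conj_apply]⟩
  · rintro _ ⟨y, rfl⟩
    exact ⟨_, ⟨e.symm y, rfl⟩, MulEquiv.ext fun z => by simp [MulAut.congr, MulAut.conj_apply]⟩

theorem card_mulAut {p f : ℕ} [Fact p.Prime] (hF : Fintype.card F = p ^ f) :
    Nat.card (MulAut (Cfsg.POmega F (Cfsg.quadFormPlus 4 F))) =
      6 * (Nat.gcd (p ^ f - 1) 2 ^ 2 * f) * Nat.card (Cfsg.POmega F (Cfsg.quadFormPlus 4 F)) := by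
  haveI : CharP F p := charP_of_card_eq_prime_pow hF
  obtain ⟨e⟩ := CfsgLib.Chev.Natural.d4_equiv F
  rw [← Nat.card_congr e.toEquiv, ← Nat.card_congr (MulAut.congr e).toEquiv]
  exact CfsgLib.Chev.AutThm.D4.card_mulAut F hF

theorem out_two {f : ℕ} (hf : f ≠ 0) (hF : Fintype.card F = 2 ^ f) :
    Nonempty (Cfsg.Out (Cfsg.POmega F (Cfsg.quadFormPlus 4 F)) ≃* Equiv.Perm (Fin 3) × Multiplicative (ZMod f)) := by
  obtain ⟨e⟩ := CfsgLib.Chev.Natural.d4_equiv F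
  obtain ⟨e'⟩ := out_congr e
  obtain ⟨u⟩ := CfsgLib.Chev.AutThm.D4.out_two F hF hf
  exact ⟨e'.symm.trans u⟩

theorem out_odd {p f : ℕ} [Fact p.Prime] (hf : f ≠ 0) (hp : p ≠ 2) (hF : Fintype.card F = p ^ f) :
    Nonempty (Cfsg.Out (Cfsg.POmega F (Cfsg.quadFormPlus 4 F)) ≃* Equiv.Perm (Fin 4) × Multiplicative (ZMod f)) := by
  obtain ⟨e⟩ := CfsgLib.Chev.Natural.d4_equiv F
  obtain ⟨e'⟩ := out_congr e
  obtain ⟨u⟩ := CfsgLib.Chev.AutThm.D4.out_odd F hF hp hf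
  exact ⟨e'.symm.trans u⟩

end CfsgLib.AutPE.Eight
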