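import Cfsg.Agent.AutPE.Split
import Cfsg.Agent.AutPE.FieldType
set_option autoImplicit false
set_option quotPrecheck false
set_option linter.unusedSectionVars false

/-!
The splitting of the class of an involutory graph-field automorphism of the plus-type group.
-/

namespace CfsgLib.AutPE

open QuadraticMap hiding proj
open Matrix
open CfsgLib.Forms CfsgLib.AutPO

universe u

variable {F : Type u} [Field F] [Fintype F] {m : ℕ}

local notation "Pr" => classSub (⇑(quadPlus F m)) (Cfsg.PreservesSingularClasses ⇑(quadPlus F m))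

theorem prod_ite_single (i₀ : Fin m) (a c : F) :
    (∏ i : Fin m, if i = i₀ then a else c) = a * c ^ (m - 1) := by
  rw [← Finset.mul_prod_erase Finset.univ _ (Finset.mem_univ i₀), if_pos rfl,
    Finset.prod_congr rfl (fun i hi => if_neg (Finset.ne_of_mem_erase hi)), Finset.prod_const,
    Finset.card_erase_of_mem (Finset.mem_univ i₀), Finset.card_univ, Fintype.card_fin]

/-- The diagonal element `diag(d, d⁻¹)` is in `Ω` when the product of `d` is a square. -/
theorem diag_mem_Omega_iff (hm : 3 ≤ m) (d : Fin m → F) (hd0 : ∀ i, d i ≠ 0) {k : Cfsg.isometryGroup F ⇑(quadPlus F m)}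
    (hk : ∀ v i, ((k : GL (Fin m ⊕ Fin m) F).1 *ᵥ v) i = Sum.elim d (fun j => (d j)⁻¹) i * v i) :
    k ∈ Cfsg.Omega F ⇑(quadPlus F m) ↔ IsSquare (∏ i, d i) := by
  have hne : (∏ i, d i) ≠ 0 := Finset.prod_ne_zero_iff.2 fun i _ => hd0 i
  obtain ⟨l, hl, hle, hls⟩ := leviList (F := F) (m := m) (Or.inr (by omega)) (diagonal d)
    (by rw [det_diagonal]; exact hne)
  have hinv : ((diagonal d)⁻¹)ᵀ = diagonal fun i => (d i)⁻¹ := by
    rw [Matrix.inv_eq_right_inv (show diagonal d * diagonal (fun i => (d i)⁻¹) = 1 by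
      rw [diagonal_mul_diagonal]; simp [hd0]), diagonal_transpose]
  have hl' : isoEquiv (quadPlus F m) k = ⟨reflProd (quadPlus F m) l, reflProd_mem_isom l⟩ :=
    Subtype.ext (LinearEquiv.ext fun v => by
      rw [coe_isoEquiv, glEquiv_apply, hl, hinv, fromBlocks_mulVec]
      funext i
      rw [hk]
      rcases i with i | i <;> simp [mulVec_diagonal])
  rw [mem_Omega_of_list (nondegenerate_quadPlus m) (Or.inr (by simp; omega)) hl', and_iff_right hle]
  rw [det_diagonal, isSquare_mul_iff' (valueProd_ne_zero l) hne] at hls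
  exact hls

theorem exists_mod_inner_four (hodd : Odd (Fintype.card F)) (hm : 3 ≤ m) (hg : Simil.Good (quadPlus F m))
    (h4 : Fintype.card F % 4 = 1) :
    ∃ (A : Type) (_ : CommGroup A) (φ : ↥((Simil.sign hg).ker.map (Simil.act (quadPlus F m))) →* A),
      Function.Surjective φ ∧ φ.ker = (Cfsg.Inn (Cfsg.POmega F ⇑(quadPlus F m))).subgroupOf _ ∧ Nat.card A = 4 := by
  obtain ⟨-, h41, hev⟩ := plus_mod_inner hodd hm hg
  rcases Nat.even_or_odd m with he | ho
  · obtain ⟨φ, h1, h2⟩ := hev he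
    exact ⟨_, inferInstance, φ, h1, h2, by rw [Nat.card_congr Multiplicative.toAdd, Nat.card_prod, Nat.card_zmod]⟩
  · obtain ⟨φ, h1, h2⟩ := h41 ⟨ho, h4⟩
    exact ⟨_, inferInstance, φ, h1, h2, by rw [Nat.card_congr Multiplicative.toAdd, Nat.card_zmod]⟩

variable {F₀ : Type*} [Field F₀] [Fintype F₀] {σ : RingAut F} {φ : F₀ →+* F}
  (hm : 5 ≤ m) (hfix : ∀ c, σ c = c ↔ c ∈ Set.range φ) {a₀ b₀ : F₀}
  (hab₀ : ∀ z₁ z₂ : F₀, z₁ ^ 2 + a₀ * z₁ * z₂ + b₀ * z₂ ^ 2 = 0 → z₁ = 0 ∧ z₂ = 0)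
include hm hfix hab₀

theorem graph_field_split (hodd : Odd (Fintype.card F)) (hσ : orderOf σ = 2)
    (hcard : Fintype.card F = Fintype.card F₀ ^ 2) :
    ((Odd m ∧ Fintype.card F₀ % 4 = 1) → Cfsg.splitClassCount Pr (Cfsg.Inn (Cfsg.POmega F ⇑(quadPlus F m)))
        (reflA (v₀ (by omega)) (v₀_ne (by omega)) * fieldP σ) = 4) ∧
    (¬ (Odd m ∧ Fintype.card F₀ % 4 = 1) → Cfsg.splitClassCount Pr (Cfsg.Inn (Cfsg.POmega F ⇑(quadPlus F m)))
        (reflA (v₀ (by omega)) (v₀_ne (by omega)) * fieldP σ) = 2) := by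
  obtain ⟨hc2, h2⟩ := Simil.two_ne_of_odd (F := F) hodd
  have hg := Simil.good_plus hodd (by omega : 3 ≤ m)
  have hodd₀ : Odd (Fintype.card F₀) := by
    rw [hcard] at hodd
    exact (Nat.odd_pow_iff two_ne_zero).1 hodd
  obtain ⟨hc20, h20⟩ := Simil.two_ne_of_odd (F := F₀) hodd₀
  have hg₀ := Simil.good_minus hodd₀ (m := m - 1) (by omega) hab₀
  have hQ₀ := gh_minus (m := m - 1) (by omega) hab₀
  obtain ⟨D, hD⟩ := exists_graph_frame hm hfix hab₀ (hσ.symm ▸ even_two)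
  -- the similarity
  obtain ⟨μ, hμ⟩ := FiniteField.exists_nonsquare hc20
  have hμ0 : μ ≠ 0 := fun e => hμ (e ▸ IsSquare.zero)
  have hμσ : σ (φ μ) = φ μ := (hfix _).2 ⟨μ, rfl⟩
  obtain ⟨w, hw⟩ := CfsgLib.AutPSL.exists_norm_eq σ (c := Units.mk0 (φ μ) ((map_ne_zero φ).2 hμ0)) hμσ
  have hwμ : (w : F) * σ w = φ μ := by
    have := congrArg Units.val hw
    rwa [CfsgLib.AutPSL.normHom_val, hσ, Finset.prod_range_succ, Finset.prod_range_one, pow_zero, pow_one,
      RingAut.one_apply, Units.val_mk0] at this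
  have hσσ : ∀ c, σ (σ c) = c := fun c => by
    have h : (σ ^ 2) c = c := by rw [← hσ, pow_orderOf_eq_one]; rfl
    rwa [pow_two, RingAut.mul_apply] at h
  have hsq := isSquare_rat (φ := φ) hcard
  obtain ⟨t, ht⟩ := hsq μ
  have ht0 : t ≠ 0 := fun e => (map_ne_zero φ).2 hμ0 (by rw [ht, e, mul_zero])
  set i₀ : Fin m := ⟨0, by omega⟩
  let d₁ : Fin m → F := fun i => if i = i₀ then (w : F) else φ μ
  let d₂ : Fin m → F := fun i => if i = i₀ then σ w else 1
  have hd12 : ∀ i, d₁ i * d₂ i = φ μ := fun i => by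
    by_cases h : i = i₀ <;> simp [d₁, d₂, h, hwμ]
  have hdet : (diagonal (Sum.elim d₁ d₂)).det = φ μ ^ m := by
    rw [det_diagonal, Fintype.prod_sum_type, ← Finset.prod_mul_distrib]
    simp only [Sum.elim_inl, Sum.elim_inr, hd12, Finset.prod_const, Finset.card_univ, Fintype.card_fin]
  let G : GL (Fin m ⊕ Fin m) F := Matrix.GeneralLinearGroup.mkOfDetNeZero _
    (hdet ▸ pow_ne_zero m ((map_ne_zero φ).2 hμ0) : (diagonal (Sum.elim d₁ d₂)).det ≠ 0)
  have hG : ∀ v i, (G.1 *ᵥ v) i = Sum.elim d₁ d₂ i * v i := fun v i => by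
    show (diagonal _ *ᵥ v) i = _
    rw [mulVec_diagonal]
  have hGq : ∀ v, quadPlus F m (G.1 *ᵥ v) = φ μ * quadPlus F m v := fun v => by
    rw [coe_quadPlus]
    simp only [Cfsg.quadFormPlus, Finset.mul_sum, hG, Sum.elim_inl, Sum.elim_inr]
    exact Finset.sum_congr rfl fun i _ => by rw [← hd12 i]; ring
  let g : Simil.Sim (quadPlus F m) := ⟨G, Units.mk0 (φ μ) ((map_ne_zero φ).2 hμ0), hGq⟩
  have hgμ : (Simil.mult hg g : F) = φ μ := by
    obtain ⟨u, hu⟩ := Simil.exists_value_one hg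
    have h1 := Simil.mult_spec hg g u
    rw [show (g : GL (Fin m ⊕ Fin m) F) = G from rfl, hGq, hu, mul_one, mul_one] at h1
    exact h1.symm
  have hgs : Simil.sign hg g = 1 := Units.ext (by
    rw [Simil.sign_val hg, hgμ, Units.val_one, show (g : GL (Fin m ⊕ Fin m) F).1.det = φ μ ^ m from hdet]
    simp [show (m + m) / 2 = m by omega, (map_ne_zero φ).2 hμ0])
  -- it commutes with the graph-field semilinear map
  set R : GL (Fin m ⊕ Fin m) F :=
    ((listGL (quadPlus F m) [⟨v₀ (by omega : 1 ≤ m), v₀_ne _⟩] : Cfsg.isometryGroup F ⇑(quadPlus F m)) :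
      GL (Fin m ⊕ Fin m) F)
  have hR : ∀ x, R.1 *ᵥ x = x - (x (Sum.inl i₀) + x (Sum.inr i₀)) • v₀ (by omega : 1 ≤ m) := fun x => by
    rw [← glEquiv_apply, ← coe_isoEquiv, isoEquiv_listGL]
    show Forms.refl (quadPlus F m) (v₀ (by omega : 1 ≤ m)) (v₀_ne (by omega : 1 ≤ m)) x = _
    rw [Forms.refl_apply, quad_v₀, inv_one, one_mul]
    congr 2
    simp [v₀, polar_plus, Pi.single_apply, mul_add, add_mul, Finset.sum_add_distrib, i₀]
  have hsM : IsSemi (quadPlus F m) R σ 1 := ⟨one_ne_zero, fun v => by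
    rw [semi, mem_isometryGroup.1 (listGL (quadPlus F m) [⟨v₀ (by omega : 1 ≤ m), v₀_ne _⟩]).2]
    have h1 := (isSemi_plus (m := m) σ).2 v
    rw [semi_one'] at h1
    exact h1⟩
  have hM : stdAut hsM = reflA (v₀ (by omega)) (v₀_ne (by omega)) * fieldP σ := by
    obtain ⟨k, hk⟩ := isSemi_sim (Simil.ofIso (listGL (quadPlus F m) [⟨v₀ (by omega : 1 ≤ m), v₀_ne _⟩]))
    rw [reflA, show Simil.act _ (Simil.ofIso (listGL (quadPlus F m) [⟨v₀ (by omega : 1 ≤ m), v₀_ne _⟩])) = stdAut hk from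
      act_eq_stdAut (Simil.ofIso (listGL (quadPlus F m) [⟨v₀ (by omega : 1 ≤ m), v₀_ne _⟩])).2 hk]
    exact stdAut_mul hk (isSemi_plus σ) hsM fun v => by rw [semi_one']; rfl
  obtain ⟨-, c, -, hc⟩ := stdAut_inj (gh_plus hm) hsM D.semi_g (hM.trans hD.symm)
  have hgc : ∀ v, semi D.g σ ((g : GL (Fin m ⊕ Fin m) F).1 *ᵥ v) =
      (g : GL (Fin m ⊕ Fin m) F).1 *ᵥ semi D.g σ v := fun v => by
    have hDs : ∀ x, semi D.g σ x = c • semi R σ x := fun x => hc _
    rw [hDs, hDs, mulVec_smul]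
    congr 1
    show R.1 *ᵥ (σ ∘ (G.1 *ᵥ v)) = G.1 *ᵥ (R.1 *ᵥ (σ ∘ v))
    funext i
    rw [hG, hR, hR]
    have hσw := hσσ (w : F)
    rcases i with i | i <;> by_cases hi : i = i₀
    all_goals
      simp [hG, v₀, Pi.single_apply, hi, i₀, d₁, d₂, hσw, hμσ]
      try ring
  obtain ⟨hcomm, hg2, hall⟩ := centralizer_mod_inn (gh_plus hm) hQ₀ hg hg₀ D hfix hsq hgs hgc hgμ hμ
  rw [hD] at hcomm hall
  obtain ⟨A, _, ψ, hψ, hψk, hA⟩ := exists_mod_inner_four hodd (by omega : 3 ≤ m) hg (by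
    rw [hcard, Nat.pow_mod]
    have := Nat.odd_iff.1 hodd₀
    rcases (show Fintype.card F₀ % 4 = 1 ∨ Fintype.card F₀ % 4 = 3 by omega) with e | e <;> rw [e])
  haveI := innNormal (Cfsg.POmega F ⇑(quadPlus F m))
  obtain ⟨hin, hout⟩ := split_count_two (x := reflA (v₀ (by omega : 1 ≤ m)) (v₀_ne _) * fieldP σ)
    (isProper_odd (gh_plus hm) hg).inn_le ψ hψ hψk ⟨g, MonoidHom.mem_ker.2 hgs, rfl⟩ hcomm hg2 hall
  -- when is the similarity inner
  let d : Fin m → F := fun i => d₁ i / t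
  have hd0 : ∀ i, d i ≠ 0 := fun i => div_ne_zero (by
    by_cases h : i = i₀ <;> simp [d₁, h, hμ0]) ht0
  let z : GL (Fin m ⊕ Fin m) F := Matrix.GeneralLinearGroup.scalar _ (Units.mk0 t ht0)⁻¹
  have hz : ∀ v : Fin m ⊕ Fin m → F, z.1 *ᵥ v = t⁻¹ • v := fun v => by
    ext i; simp [z, Matrix.GeneralLinearGroup.scalar, Matrix.mulVec_diagonal]
  have hkmem : z * G ∈ Cfsg.isometryGroup F ⇑(quadPlus F m) := mem_isometryGroup.2 fun v => by
    rw [Units.val_mul, ← mulVec_mulVec, hz, QuadraticMap.map_smul, hGq, smul_eq_mul, ht]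
    field_simp
  set k : Cfsg.isometryGroup F ⇑(quadPlus F m) := ⟨_, hkmem⟩
  have hkv : ∀ v i, ((k : GL (Fin m ⊕ Fin m) F).1 *ᵥ v) i = Sum.elim d (fun j => (d j)⁻¹) i * v i := fun v i => by
    show ((z * G : GL (Fin m ⊕ Fin m) F).1 *ᵥ v) i = _
    rw [Units.val_mul, ← mulVec_mulVec, hz, Pi.smul_apply, hG, smul_eq_mul]
    rcases i with i | i
    · simp only [Sum.elim_inl, d]
      field_simp
    · have h1 : d₁ i ≠ 0 := fun e => by have := hd0 i; simp [d, e] at this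
      simp only [Sum.elim_inr, d]
      field_simp
      linear_combination v (Sum.inr i) * (hd12 i) + v (Sum.inr i) * ht
  have hiff : Simil.act _ g ∈ Cfsg.Inn (Cfsg.POmega F ⇑(quadPlus F m)) ↔ (Odd m ∧ Fintype.card F₀ % 4 = 1) := by
    have e : Simil.act _ g = Simil.act _ (Simil.ofIso k) := by
      have h1 : Simil.act (quadPlus F m) ((Simil.ofIso k) * g⁻¹) = 1 :=
        (act_eq_one (gh_plus hm) _).2 ⟨t⁻¹, inv_ne_zero ht0, fun v => by
          show ((z * G * G⁻¹ : GL (Fin m ⊕ Fin m) F)).1 *ᵥ v = _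
          rw [mul_inv_cancel_right, hz]⟩
      rw [map_mul, map_inv, mul_inv_eq_one] at h1
      exact h1.symm
    have hneg : (Simil.negOne (Q := quadPlus F m)) ∈ Cfsg.Omega F ⇑(quadPlus F m) :=
      (Simil.negOne_plus hodd (by omega)).2 fun h => by
        have h3 := h.2
        rw [hcard, Nat.pow_mod] at h3
        rcases (show Fintype.card F₀ % 4 = 1 ∨ Fintype.card F₀ % 4 = 3 by have := Nat.odd_iff.1 hodd₀; omega)
          with e | e <;> rw [e] at h3 <;> simp at h3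
    rw [e, Simil.act_mem_inn_iff hg hneg, diag_mem_Omega_iff (by omega) d hd0 hkv]
    have hw : ¬ IsSquare (w : F) := by
      rintro ⟨s, hs⟩
      obtain ⟨c, hc⟩ := (hfix (s * σ s)).1 (by rw [map_mul, hσσ]; ring)
      exact hμ ⟨c, φ.injective (by rw [map_mul, hc, ← hwμ, hs, map_mul]; ring)⟩
    have hprod : ∏ i, d i = (w : F) * t ^ m * (t ^ 2)⁻¹ := by
      rw [Finset.prod_div_distrib, Finset.prod_const, Finset.card_univ, Fintype.card_fin, prod_ite_single, ht]
      obtain ⟨j, rfl⟩ : ∃ j, m = j + 2 := ⟨m - 2, by omega⟩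
      rw [show j + 2 - 1 = j + 1 by omega, mul_pow]
      field_simp
      ring
    have hprod' : IsSquare (∏ i, d i) ↔ ¬ IsSquare (t ^ m) := by
      rw [hprod, isSquare_mul_iff' (mul_ne_zero w.ne_zero (pow_ne_zero _ ht0)) (inv_ne_zero (pow_ne_zero _ ht0)),
        isSquare_inv, isSquare_mul_iff' w.ne_zero (pow_ne_zero _ ht0)]
      have : IsSquare (t ^ 2) := ⟨t, pow_two t⟩
      tauto
    rw [hprod']
    have htsq : IsSquare t ↔ Fintype.card F₀ % 4 = 3 := by
      rw [FiniteField.isSquare_iff hc2 ht0, hcard]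
      obtain ⟨j, hj⟩ := hodd₀
      have he : Fintype.card F₀ ^ 2 / 2 = 2 * (j * (j + 1)) := by
        rw [hj, show (2 * j + 1) ^ 2 = 1 + 2 * (2 * (j * (j + 1))) by ring, Nat.add_mul_div_left _ _ two_pos]
        omega
      have h1 : μ ^ (Fintype.card F₀ / 2) = -1 :=
        (FiniteField.pow_dichotomy hc20 hμ0).resolve_left fun e1 => hμ ((FiniteField.isSquare_iff hc20 hμ0).2 e1)
      rw [he, pow_mul, pow_two, ← ht, ← map_pow,
        show Fintype.card F₀ / 2 = j from by omega] at *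
      rw [pow_mul, h1, map_pow, map_neg, map_one]
      constructor
      · intro e1
        rcases Nat.even_or_odd (j + 1) with ⟨i, hi⟩ | ho
        · omega
        · rw [ho.neg_one_pow] at e1
          exact absurd e1 (fun e2 => h2 (by linear_combination -e2))
      · intro e1
        exact Even.neg_one_pow ⟨(j + 1) / 2, by omega⟩
    rcases Nat.even_or_odd m with he | ho
    · exact iff_of_false (not_not.2 (he.isSquare_pow t)) fun h => Nat.not_even_iff_odd.2 h.1 he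
    · obtain ⟨j, hj⟩ := ho
      have hpow : IsSquare (t ^ m) ↔ IsSquare t := by
        rw [hj, pow_succ, isSquare_mul_iff' (pow_ne_zero _ ht0) ht0, iff_true_left ((even_two_mul j).isSquare_pow t)]
      rw [hpow, htsq]
      have := Nat.odd_iff.1 hodd₀
      exact ⟨fun h => ⟨⟨j, hj⟩, by omega⟩, fun h e => by omega⟩
  rw [show Pr = (Simil.sign hg).ker.map (Simil.act (quadPlus F m)) from inndiag_plus_eq hodd (by omega) hg]
  refine ⟨fun h => ?_, fun h => ?_⟩
  · rw [hin (hiff.2 h), hA]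
  · have h1 := hout fun e => h (hiff.1 e)
    omega

end CfsgLib.AutPE
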