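import Cfsg.Agent.AutPE.PlusFix
import Cfsg.Agent.AutPE.SplitPlus
set_option autoImplicit false
set_option quotPrecheck false
set_option linter.unusedSectionVars false

/-!
Splitting of the class of a standard field automorphism of the plus-type group, `2m ≥ 6`.
-/

namespace CfsgLib.AutPE.PlusFld

open QuadraticMap hiding proj
open Matrix
open CfsgLib.Forms CfsgLib.AutPO

universe u v

variable {F : Type u} [Field F] [Fintype F] {F₀ : Type v} [Field F₀] [Fintype F₀] {m : ℕ} {σ : RingAut F}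
  {φ : F₀ →+* F}

local notation "Qp" => (quadPlus F m)
local notation "Q0" => (quadPlus F₀ m)
local notation "PΩ'" => (Cfsg.POmega F ⇑(quadPlus F m))
local notation "II" => (Fin m ⊕ Fin m)

variable (hfix : ∀ c, σ c = c ↔ c ∈ Set.range φ) (hm : 3 ≤ m)
include hfix hm

/-- Special isometries of the small form with a non-square spinor norm stay outside `Ω` in odd degree. -/
theorem field_split_one (hg : Simil.Good Qp) (hg₀ : Simil.Good Q0) (hodd : Odd (orderOf σ)) :
    Cfsg.splitClassCount ((Simil.sign hg).ker.map (Simil.act Qp)) (Cfsg.Inn PΩ') (fieldP σ) = 1 := by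
  set D := plusFrame (F₀ := F₀) (m := m) hfix
  obtain ⟨x₀, hx₀, hx₀μ⟩ := exists_sign_one hg₀
  have hT : ∀ x, Simil.sign hg₀ x = 1 →
      D.T x ∈ (Simil.sign hg).ker.map (Simil.act Qp) ⊓ Subgroup.centralizer {fieldP σ} := fun x hx =>
    ⟨⟨D.lift x, MonoidHom.mem_ker.2 (Units.ext (by
      rw [D.sign_lift hg hg₀, hx, Units.val_one, map_one, Units.val_one])), rfl⟩, T_mem_centralizer hfix x⟩
  have hsq : ∀ g : Simil.Sim Qp, Simil.sign hg g = 1 → IsSquare (Simil.mult hg g : F) →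
      ∃ k ∈ Cfsg.Inn PΩ', ∃ c ∈ (Simil.sign hg).ker.map (Simil.act Qp) ⊓ Subgroup.centralizer {fieldP σ},
        Simil.act Qp g = k * c := by
    intro g h1 h2
    obtain ⟨j, hj, e⟩ := exists_iso_of_sign hg h1 h2
    obtain ⟨K, hKd, hK⟩ := Simil.exists_pair_not_mem hg₀
    obtain ⟨l, rfl⟩ := exists_eq_listGL hg₀.nondeg (Simil.hq hg₀) K
    have hev : Even l.length := (Simil.det_one_iff_even hg₀ (isoEquiv_listGL l)).1 hKd
    have hns : ¬ IsSquare (valueProd Q0 l) := fun h => hK ((listGL_mem_Omega hg₀.nondeg (Simil.hq hg₀) l).2 ⟨hev, h⟩)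
    obtain ⟨l', hlen, hval, hl⟩ := D.lift_list l
    have hev' : Even l'.length := hlen ▸ hev
    have hK' : listGL Qp l' ∉ Cfsg.Omega F ⇑Qp := fun h => by
      have h3 := ((listGL_mem_Omega hg.nondeg (Simil.hq hg) l').1 h).2
      rw [hval, isSquare_mul_iff' (pow_ne_zero _ D.hb) ((map_ne_zero φ).2 (valueProd_ne_zero l))] at h3
      exact not_isSquare_rat hfix hodd hns (h3.1 (hev.isSquare_pow D.b))
    have hKd' := (Simil.det_one_iff_even hg (isoEquiv_listGL l')).2 hev'
    rcases Simil.special_dichotomy hg hKd' hK' hj with hw | hw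
    · exact ⟨_, (Simil.mem_inn_iff _).2 ⟨j, hw, rfl⟩, 1, one_mem _, by rw [mul_one, e]⟩
    · have hKs : Simil.sign hg₀ (Simil.ofIso (listGL Q0 l)) = 1 := Units.ext (by
        rw [Simil.sign_val hg₀, Simil.mult_ofIso hg₀, Units.val_one, one_pow, div_one]; exact hKd)
      refine ⟨_, (Simil.mem_inn_iff _).2 ⟨_, hw, rfl⟩, (D.T (Simil.ofIso (listGL Q0 l)))⁻¹,
        inv_mem (hT _ hKs), ?_⟩
      rw [show D.T (Simil.ofIso (listGL Q0 l)) = Simil.act Qp (Simil.ofIso (listGL Qp l')) from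
          congrArg (Simil.act Qp) hl,
        map_mul, map_mul, mul_inv_cancel_right, e]
  haveI := innNormal PΩ'
  rw [CfsgLib.AutPSL.splitClassCount_eq_card (A := PUnit.{1}) _ _ _ (inn_le_sign hg) 1
    (fun _ => ⟨1, Subsingleton.elim _ _⟩) fun h => ?_, Nat.card_eq_fintype_card, Fintype.card_punit]
  refine iff_of_true (Subsingleton.elim _ _) ?_
  obtain ⟨g, hgs, e⟩ := h.2
  by_cases hgμ : IsSquare (Simil.mult hg g : F)
  · obtain ⟨k, hk, c, hc, e'⟩ := hsq g (MonoidHom.mem_ker.1 hgs) hgμ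
    exact ⟨k, hk, c, hc, e.symm.trans e'⟩
  · have hl : Simil.sign hg (D.lift x₀) = 1 := Units.ext (by
      rw [D.sign_lift hg hg₀, hx₀, Units.val_one, map_one, Units.val_one])
    obtain ⟨k, hk, c, hc, e'⟩ := hsq (g * (D.lift x₀)⁻¹)
      (by rw [map_mul, map_inv, MonoidHom.mem_ker.1 hgs, hl, inv_one, one_mul]) (by
        rw [map_mul, map_inv, Units.val_mul, Units.val_inv_eq_inv_val,
          isSquare_mul_iff' (Simil.mult hg g).ne_zero (inv_ne_zero (Simil.mult hg _).ne_zero), isSquare_inv,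
          D.mult_lift hg hg₀]
        exact iff_of_false hgμ (not_isSquare_rat hfix hodd hx₀μ))
    refine ⟨k, hk, c * D.T x₀, mul_mem hc (hT _ hx₀), ?_⟩
    rw [← mul_assoc, ← e', ← e, show D.T x₀ = Simil.act Qp (D.lift x₀) from rfl, map_mul, map_inv,
      inv_mul_cancel_right]

/-- The splitting for an involutory field automorphism. -/
theorem field_split_two (hodd : Odd (Fintype.card F)) (hodd₀ : Odd (Fintype.card F₀))
    (hcard : Fintype.card F = Fintype.card F₀ ^ 2) (hg : Simil.Good Qp) (hg₀ : Simil.Good Q0) :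
    ((Odd m ∧ Fintype.card F₀ % 4 = 1) → Cfsg.splitClassCount ((Simil.sign hg).ker.map (Simil.act Qp))
        (Cfsg.Inn PΩ') (fieldP σ) = 2) ∧
    (¬ (Odd m ∧ Fintype.card F₀ % 4 = 1) → Cfsg.splitClassCount ((Simil.sign hg).ker.map (Simil.act Qp))
        (Cfsg.Inn PΩ') (fieldP σ) = 4) := by
  obtain ⟨hc2, h2⟩ := Simil.two_ne_of_odd (F := F) hodd
  obtain ⟨hc20, h20⟩ := Simil.two_ne_of_odd (F := F₀) hodd₀
  set D := plusFrame (F₀ := F₀) (m := m) hfix
  obtain ⟨μ, hμ⟩ := FiniteField.exists_nonsquare hc20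
  have hμ0 : μ ≠ 0 := fun e => hμ (e ▸ IsSquare.zero)
  have hsq := isSquare_rat (φ := φ) hcard
  obtain ⟨t, ht⟩ := hsq μ
  have ht0 : t ≠ 0 := fun e => (map_ne_zero φ).2 hμ0 (by rw [ht, e, mul_zero])
  -- the similarity `diag(μ, 1)` of the small form
  let G : GL II F₀ := Matrix.GeneralLinearGroup.mkOfDetNeZero
    (diagonal (Sum.elim (fun _ => μ) fun _ => 1)) (by simp [det_diagonal, hμ0])
  have hG : ∀ v i, (G.1 *ᵥ v) i = Sum.elim (fun _ => μ) (fun _ => (1 : F₀)) i * v i := fun v i => by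
    show (diagonal _ *ᵥ v) i = _
    rw [mulVec_diagonal]
  have hGq : ∀ v, Q0 (G.1 *ᵥ v) = μ * Q0 v := fun v => by
    simp [Cfsg.quadFormPlus, hG, Finset.mul_sum, mul_assoc]
  let x₁ : Simil.Sim Q0 := ⟨G, Units.mk0 μ hμ0, hGq⟩
  have hm₁ : (Simil.mult hg₀ x₁ : F₀) = μ := by
    obtain ⟨u, hu⟩ := Simil.exists_value_one hg₀
    have h1 := Simil.mult_spec hg₀ x₁ u
    rw [show (x₁ : GL II F₀) = G from rfl, hGq, hu, mul_one, mul_one] at h1
    exact h1.symm
  have hs₁ : Simil.sign hg₀ x₁ = 1 := Units.ext (by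
    rw [Simil.sign_val hg₀, hm₁, Units.val_one,
      show (x₁ : GL II F₀).1 = diagonal (Sum.elim (fun _ => μ) fun _ => (1 : F₀)) from rfl,
      det_diagonal, Fintype.prod_sum_type]
    simp [show (m + m) / 2 = m by omega, hμ0])
  -- squares give inner automorphisms
  have hinn : ∀ x : Simil.Sim Q0, Simil.sign hg₀ x = 1 → IsSquare (Simil.mult hg₀ x : F₀) →
      D.T x ∈ Cfsg.Inn PΩ' := by
    intro x hx hμx
    obtain ⟨j, hj, e⟩ := exists_iso_of_sign hg₀ hx hμx
    obtain ⟨c, hc⟩ := (Simil.act_eq_one_iff hg₀ (x⁻¹ * Simil.ofIso j)).1 (by rw [map_mul, map_inv, e, inv_mul_cancel])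
    have h1 : D.T x = D.T (Simil.ofIso j) := by
      rw [← inv_mul_eq_one, ← map_inv, ← map_mul]
      exact (Simil.act_eq_one_iff hg _).2 ⟨Units.map (φ : F₀ →* F) c, Units.ext (Matrix.ext_iff_mulVec.2 fun v => by
        rw [D.lift_scalar _ (fun w => by rw [hc, Simil.scalar_mulVec hg₀]) v, Simil.scalar_mulVec hg]; rfl)⟩
    obtain ⟨l, rfl⟩ := exists_eq_listGL hg₀.nondeg (Simil.hq hg₀) j
    have hev : Even l.length := (Simil.det_one_iff_even hg₀ (isoEquiv_listGL l)).1 hj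
    obtain ⟨l', hlen, hval, hl⟩ := D.lift_list l
    rw [h1]
    refine (Simil.mem_inn_iff _).2 ⟨listGL Qp l', ?_, congrArg (Simil.act Qp) hl⟩
    rw [listGL_mem_Omega hg.nondeg (Simil.hq hg), hlen, hval]
    exact ⟨hev, (hev.isSquare_pow D.b).mul (hsq _)⟩
  have hmem : ∀ x, Simil.sign hg₀ x = 1 → D.T x ∈ (Simil.sign hg).ker.map (Simil.act Qp) := fun x hx =>
    ⟨D.lift x, MonoidHom.mem_ker.2 (Units.ext (by
      rw [D.sign_lift hg hg₀, hx, Units.val_one, map_one, Units.val_one])), rfl⟩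
  have hgg : D.T x₁ * D.T x₁ ∈ Cfsg.Inn PΩ' := by
    rw [← map_mul]
    exact hinn _ (by rw [map_mul, hs₁, one_mul]) (by rw [map_mul, Units.val_mul]; exact ⟨_, rfl⟩)
  have hall : ∀ c ∈ (Simil.sign hg).ker.map (Simil.act Qp), c * fieldP σ = fieldP σ * c →
      c ∈ Cfsg.Inn PΩ' ∨ c * (D.T x₁)⁻¹ ∈ Cfsg.Inn PΩ' := by
    rintro _ ⟨g, hgs, rfl⟩ hcc
    obtain ⟨g', hg', e⟩ := exists_twist σ g
    rw [← hcc, mul_left_inj] at e
    obtain ⟨c, hc'⟩ := (Simil.act_eq_one_iff hg (g⁻¹ * g')).1 (by rw [map_mul, map_inv, e, inv_mul_cancel])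
    have hce : ∀ i j, σ ((g : GL II F).1 i j) = (c : F) * (g : GL II F).1 i j := fun i j => by
      have h1 : (g' : GL II F) = (g : GL II F) * Matrix.GeneralLinearGroup.scalar II c := by
        rw [← hc', Subgroup.coe_mul, Subgroup.coe_inv, mul_inv_cancel_left]
      rw [entries_of_twist hg' i j, h1, Units.val_mul]
      simp [Matrix.GeneralLinearGroup.scalar, Matrix.mul_diagonal, mul_comm]
    obtain ⟨i, j, hij⟩ : ∃ i j, (g : GL II F).1 i j ≠ 0 := by
      by_contra h'
      push Not at h'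
      haveI : Nonempty II := ⟨Sum.inl ⟨0, by omega⟩⟩
      exact (g : GL II F).ne_zero (Matrix.ext h')
    set a := (g : GL II F).1 i j with ha
    let z : Simil.Sim Qp := ⟨Matrix.GeneralLinearGroup.scalar II (Units.mk0 a hij)⁻¹, Simil.scalar_mem_sim hg _⟩
    have hz : Simil.act Qp z = 1 := (Simil.act_eq_one_iff hg z).2 ⟨_, rfl⟩
    obtain ⟨x, hx⟩ := exists_lift_rat hfix (by omega : 1 ≤ m) (g * z) fun k l => by
      have hval : ((g * z : Simil.Sim Qp) : GL II F).1 k l = (g : GL II F).1 k l * a⁻¹ := by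
        rw [Subgroup.coe_mul, Units.val_mul]
        simp [z, Matrix.GeneralLinearGroup.scalar, Matrix.mul_diagonal]
      rw [hval, map_mul, map_inv₀, hce k l, show σ a = (c : F) * a from hce i j]
      have := c.ne_zero
      field_simp
    have hxs : Simil.sign hg₀ x = 1 := Units.ext (φ.injective (by
      rw [← D.sign_lift hg hg₀, hx, map_mul, MonoidHom.mem_ker.1 hgs, sign_of_act_one hg hz, mul_one, Units.val_one,
        Units.val_one, map_one]))
    have hT : D.T x = Simil.act Qp g := by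
      show Simil.act Qp (D.lift x) = _
      rw [hx, map_mul, hz, mul_one]
    rw [← hT]
    by_cases hs : IsSquare (Simil.mult hg₀ x : F₀)
    · exact Or.inl (hinn x hxs hs)
    · refine Or.inr ?_
      rw [← map_inv, ← map_mul]
      refine hinn _ (by rw [map_mul, map_inv, hxs, hs₁, inv_one, one_mul]) ?_
      rw [map_mul, map_inv, Units.val_mul, Units.val_inv_eq_inv_val,
        isSquare_mul_iff' (Simil.mult hg₀ x).ne_zero (inv_ne_zero (Simil.mult hg₀ x₁).ne_zero), isSquare_inv, hm₁]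
      exact iff_of_false hs hμ
  have h4 : Fintype.card F % 4 = 1 := by
    rw [hcard, Nat.pow_mod]
    have := Nat.odd_iff.1 hodd₀
    rcases (show Fintype.card F₀ % 4 = 1 ∨ Fintype.card F₀ % 4 = 3 by omega) with e | e <;> rw [e]
  obtain ⟨A, _, ψ, hψ, hψk, hA⟩ := exists_mod_inner_four hodd hm hg h4
  haveI := innNormal PΩ'
  obtain ⟨hin, hout⟩ := split_count_two (x := fieldP σ) (inn_le_sign hg) ψ hψ hψk (hmem x₁ hs₁)
    (D.commute_T hfix x₁).eq hgg hall
  -- when is the similarity inner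
  let z : GL II F := Matrix.GeneralLinearGroup.scalar _ (Units.mk0 t ht0)⁻¹
  have hz : ∀ v : II → F, z.1 *ᵥ v = t⁻¹ • v := fun v => by
    ext i; simp [z, Matrix.GeneralLinearGroup.scalar, Matrix.mulVec_diagonal]
  have hX : ∀ v i, ((D.lift x₁ : Simil.Sim Qp) : GL II F).1.mulVec v i =
      Sum.elim (fun _ => φ μ) (fun _ => (1 : F)) i * v i := fun v i => by
    rw [Frame.coe_lift, conjS_plus hfix]
    show ((φ.mapMatrix (diagonal (Sum.elim (fun _ => μ) fun _ => (1 : F₀)))) *ᵥ v) i = _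
    rw [RingHom.mapMatrix_apply, diagonal_map (map_zero φ), mulVec_diagonal]
    rcases i with i | i <;> simp
  have hkmem : z * ((D.lift x₁ : Simil.Sim Qp) : GL II F) ∈ Cfsg.isometryGroup F ⇑Qp := mem_isometryGroup.2 fun v => by
    rw [Units.val_mul, ← mulVec_mulVec, hz, QuadraticMap.map_smul, smul_eq_mul]
    have h1 : Qp (((D.lift x₁ : Simil.Sim Qp) : GL II F).1 *ᵥ v) = φ μ * Qp v := by
      simp [Cfsg.quadFormPlus, hX, Finset.mul_sum, mul_assoc]
    rw [h1, ht]
    field_simp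
  set k : Cfsg.isometryGroup F ⇑Qp := ⟨_, hkmem⟩
  have hkv : ∀ v i, ((k : GL II F).1 *ᵥ v) i = Sum.elim (fun _ => t) (fun _ => t⁻¹) i * v i := fun v i => by
    show ((z * ((D.lift x₁ : Simil.Sim Qp) : GL II F) : GL II F).1 *ᵥ v) i = _
    rw [Units.val_mul, ← mulVec_mulVec, hz, Pi.smul_apply, hX, smul_eq_mul]
    rcases i with i | i
    · simp only [Sum.elim_inl, ht]; field_simp
    · simp only [Sum.elim_inr, one_mul]
  have hneg : (Simil.negOne (Q := Qp)) ∈ Cfsg.Omega F ⇑Qp :=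
    (Simil.negOne_plus hodd (by omega)).2 fun h => by omega
  have e : D.T x₁ = Simil.act Qp (Simil.ofIso k) := by
    have h1 : Simil.act Qp ((Simil.ofIso k) * (D.lift x₁)⁻¹) = 1 :=
      (Simil.act_eq_one_iff hg _).2 ⟨(Units.mk0 t ht0)⁻¹, by
        show z * ((D.lift x₁ : Simil.Sim Qp) : GL II F) * ((D.lift x₁ : Simil.Sim Qp) : GL II F)⁻¹ = _
        rw [mul_inv_cancel_right]⟩
    rw [map_mul, map_inv, mul_inv_eq_one] at h1
    exact h1.symm
  have hiff : D.T x₁ ∈ Cfsg.Inn PΩ' ↔ ¬ (Odd m ∧ Fintype.card F₀ % 4 = 1) := by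
    rw [e, Simil.act_mem_inn_iff hg hneg, diag_mem_Omega_iff hm (fun _ => t) (fun _ => ht0) hkv,
      Finset.prod_const, Finset.card_univ, Fintype.card_fin]
    have htsq : IsSquare t ↔ Fintype.card F₀ % 4 = 3 := by
      rw [FiniteField.isSquare_iff hc2 ht0, hcard]
      obtain ⟨j, hj⟩ := hodd₀
      have he : Fintype.card F₀ ^ 2 / 2 = 2 * (j * (j + 1)) := by
        rw [hj, show (2 * j + 1) ^ 2 = 1 + 2 * (2 * (j * (j + 1))) by ring, Nat.add_mul_div_left _ _ two_pos]
        omega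
      have h1 : μ ^ (Fintype.card F₀ / 2) = -1 :=
        (FiniteField.pow_dichotomy hc20 hμ0).resolve_left fun e1 => hμ ((FiniteField.isSquare_iff hc20 hμ0).2 e1)
      rw [he, pow_mul, pow_two, ← ht, ← map_pow,
        show Fintype.card F₀ / 2 = j from by omega] at *
      rw [pow_mul, h1, map_pow, map_neg, map_one]
      constructor
      · intro e1
        rcases Nat.even_or_odd (j + 1) with ⟨i, hi⟩ | ho
        · omega
        · rw [ho.neg_one_pow] at e1
          exact absurd e1 (fun e2 => h2 (by linear_combination -e2))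
      · intro e1
        exact Even.neg_one_pow ⟨(j + 1) / 2, by omega⟩
    rcases Nat.even_or_odd m with he | ho
    · exact iff_of_true (he.isSquare_pow t) fun h => Nat.not_even_iff_odd.2 h.1 he
    · obtain ⟨j, hj⟩ := ho
      have hpow : IsSquare (t ^ m) ↔ IsSquare t := by
        rw [hj, pow_succ, isSquare_mul_iff' (pow_ne_zero _ ht0) ht0, iff_true_left ((even_two_mul j).isSquare_pow t)]
      rw [hpow, htsq]
      have := Nat.odd_iff.1 hodd₀
      exact ⟨fun h h' => by omega, fun h => by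
        by_contra h'
        exact h ⟨⟨j, hj⟩, by omega⟩⟩
  refine ⟨fun h => ?_, fun h => ?_⟩
  · have h1 := hout fun e => hiff.1 e h
    omega
  · rw [hin (hiff.2 h), hA]

end CfsgLib.AutPE.PlusFld
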