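import Cfsg.Agent.Chev.Natural.D4
import Cfsg.Agent.Chev.AutThm.OutD4
import Cfsg.Agent.AutPE.PlusSplitField
set_option autoImplicit false
set_option maxRecDepth 100000
set_option linter.unusedSectionVars false
set_option quotPrecheck false

/-!
The inner-diagonal group of the plus-type group in dimension eight is normal in the automorphism group: it
corresponds to the diagonal automorphisms of the group of type `D₄`.
-/

namespace CfsgLib.Chev.Natural

open Cfsg.Lie Matrix
open scoped commutatorElement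

universe u

/-- A representation whose image is the commutator subgroup of an isometry group gives `PΩ`. -/
theorem equiv_POmega_map {D : ChevalleyDatum} (S : Sys.{u} D) (hg : GenOK D) {F : Type u} [Field F]
    (hperf : commutator (D.SteinbergCover F) = ⊤) (hsimp : IsSimpleGroup (D.group F))
    {ι : Type} [Fintype ι] [DecidableEq ι] {Q : (ι → F) → F} (ρ : D.SteinbergCover F →* GL ι F)
    {E : Subgroup (GL ι F)} (hE : ρ.range = E) (hEiso : E ≤ Cfsg.isometryGroup F Q)
    (hcomm : ∀ g ∈ Cfsg.isometryGroup F Q, ∀ h ∈ Cfsg.isometryGroup F Q, ⁅g, h⁆ ∈ E)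
    (hne : ∃ x, ρ x ≠ 1) : ∃ e : ↥(D.group F) ≃* Cfsg.POmega F Q, ∀ x, ∃ A : Cfsg.Omega F Q,
      ((A : Cfsg.isometryGroup F Q) : GL ι F) = ρ x ∧ e ((S.coverLift F).θ x) = QuotientGroup.mk A := by
  let Φ : D.SteinbergCover F →* Cfsg.isometryGroup F Q :=
    ρ.codRestrict _ fun x => hEiso (hE ▸ ⟨x, rfl⟩)
  have hrange : Φ.range = Cfsg.Omega F Q := by
    refine le_antisymm ?_ ?_
    · rw [MonoidHom.range_eq_map, ← hperf, commutator_def, Subgroup.map_commutator]
      exact Subgroup.commutator_mono le_top le_top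
    · rw [Cfsg.Omega, commutator_def, Subgroup.commutator_le]
      intro a _ b _
      have hm : ((⁅a, b⁆ : Cfsg.isometryGroup F Q) : GL ι F) ∈ ρ.range := by
        rw [hE]; exact hcomm _ a.2 _ b.2
      obtain ⟨x, hx⟩ := hm
      exact ⟨x, Subtype.ext hx⟩
  let Φ' : D.SteinbergCover F →* Cfsg.Omega F Q := Φ.codRestrict _ fun x => hrange ▸ ⟨x, rfl⟩
  have hsurj : Function.Surjective Φ' := by
    rintro ⟨a, ha⟩
    rw [← hrange] at ha
    obtain ⟨x, hx⟩ := ha
    exact ⟨x, Subtype.ext hx⟩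
  have hΩ : commutator (Cfsg.Omega F Q) = ⊤ := by
    rw [← top_le_iff]
    calc (⊤ : Subgroup (Cfsg.Omega F Q)) = (⊤ : Subgroup (D.SteinbergCover F)).map Φ' :=
          (Subgroup.map_top_of_surjective _ hsurj).symm
      _ ≤ _ := by
        rw [← hperf, commutator_def, Subgroup.map_commutator]
        exact Subgroup.commutator_mono le_top le_top
  let ψ : D.SteinbergCover F →* Cfsg.POmega F Q :=
    (QuotientGroup.mk' (Subgroup.center (Cfsg.Omega F Q))).comp Φ'
  have hψ : Function.Surjective ψ := (QuotientGroup.mk'_surjective _).comp hsurj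
  have hker : (S.coverLift F).θ.ker ≤ ψ.ker := by
    intro z hz
    have hzc := (S.coverLift F).θ_ker_le_center hg hz
    have : ψ z ∈ Subgroup.center (Cfsg.POmega F Q) := by
      rw [Subgroup.mem_center_iff]
      intro g
      obtain ⟨a, rfl⟩ := hψ g
      rw [← map_mul, ← map_mul, Subgroup.mem_center_iff.1 hzc a]
    rwa [center_quot_eq_bot hΩ, Subgroup.mem_bot, ← MonoidHom.mem_ker] at this
  let φ : D.group F →* Cfsg.POmega F Q :=
    (S.coverLift F).θ.liftOfSurjective (S.coverLift F).θ_surjective ⟨ψ, hker⟩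
  have hφ : ∀ x, φ ((S.coverLift F).θ x) = ψ x := fun x =>
    MonoidHom.liftOfRightInverse_comp_apply _ _ _ ⟨ψ, hker⟩ x
  have hφs : Function.Surjective φ := by
    intro g
    obtain ⟨x, rfl⟩ := hψ g
    exact ⟨_, hφ x⟩
  refine ⟨MulEquiv.ofBijective φ ⟨(MonoidHom.ker_eq_bot_iff _).1 ?_, hφs⟩, fun x => ⟨Φ' x, rfl, hφ x⟩⟩
  rcases hsimp.eq_bot_or_eq_top_of_normal φ.ker inferInstance with h | h
  · exact h
  exfalso
  obtain ⟨x, hx⟩ := hne
  apply hx
  -- otherwise `Ω` would be central, hence abelian and perfect, hence trivial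
  have hc : ∀ a : Cfsg.Omega F Q, a ∈ Subgroup.center (Cfsg.Omega F Q) := by
    intro a
    obtain ⟨y, rfl⟩ := hsurj a
    have h1 : φ ((S.coverLift F).θ y) = 1 :=
      MonoidHom.mem_ker.1 (h ▸ Subgroup.mem_top _)
    rw [hφ] at h1
    exact (QuotientGroup.eq_one_iff _).1 h1
  have htriv : commutator (Cfsg.Omega F Q) = ⊥ := by
    rw [commutator_def, Subgroup.commutator_eq_bot_iff_le_centralizer]
    intro a _ b _
    exact Subgroup.mem_center_iff.1 (hc a) b
  have : Φ' x ∈ (⊥ : Subgroup (Cfsg.Omega F Q)) := by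
    rw [← htriv, hΩ]; exact Subgroup.mem_top _
  exact congrArg (fun a : Cfsg.Omega F Q => ((a : Cfsg.isometryGroup F Q) : GL ι F))
    (Subgroup.mem_bot.1 this)

/-- `D₄(F) ≅ PΩ₈⁺(F)`. -/
theorem d4_equiv_map (F : Type u) [Field F] :
    ∃ e : ↥(chevD4.group F) ≃* Cfsg.POmega F (Cfsg.quadFormPlus 4 F), ∀ r < chevD4.nroots, ∀ t : F,
      ∃ A : Cfsg.Omega F (Cfsg.quadFormPlus 4 F),
        (((A : Cfsg.isometryGroup F (Cfsg.quadFormPlus 4 F)) : GL (Fin 4 ⊕ Fin 4) F) :
          Matrix (Fin 4 ⊕ Fin 4) (Fin 4 ⊕ Fin 4) F) = repMat tblD4 r t ∧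
        e ((sysD4.{u}).xG r t) = QuotientGroup.mk A := by
  obtain ⟨ρ, hρ⟩ := exists_repHom (F := F) (code := codeD4) (d := 8) (T := tblD4) (D := chevD4)
    (by decide) (by decide) repOK_D4
  have hlen : tblD4.length = chevD4.nroots := by decide +kernel
  have hmem : ∀ (k : NK (Fin 4 ⊕ Fin 4)) (hk : k.Ok) (s : ℤ), (k, s) ∈ tblD4 → s * s = 1 →
      ∀ t : F, nkU k hk t ∈ ρ.range := by
    intro k hk s hs hss t
    obtain ⟨r, hr⟩ := List.getElem?_of_mem hs
    refine ⟨chevD4.scGen F r ((s : F) * t), Units.ext ?_⟩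
    rw [hρ, repMat, hr]
    show nkMat k _ = nkMat k t
    rw [← mul_assoc, ← Int.cast_mul, hss, Int.cast_one, one_mul]
  have hswap : ∀ (a b c d : Fin 4 ⊕ Fin 4) (h1 : (NK.two a b c d).Ok) (h2 : (NK.two c d a b).Ok),
      (∀ t : F, nkU (.two a b c d) h1 t ∈ ρ.range) → ∀ t : F, nkU (.two c d a b) h2 t ∈ ρ.range := by
    intro a b c d h1 h2 h t
    convert h (-t) using 1
    exact Units.ext (nkMat_two_swap c d a b t).symm
  have hE : ρ.range = ED 4 F := by
    refine le_antisymm ?_ ?_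
    · rw [MonoidHom.range_eq_map, ← PresentedGroup.closure_range_of (chevD4.steinbergRelsAB F),
        MonoidHom.map_closure, Subgroup.closure_le]
      rintro _ ⟨_, ⟨⟨r, t⟩, rfl⟩, rfl⟩
      have h1 : PresentedGroup.of (rels := chevD4.steinbergRelsAB F) (r, t) = chevD4.scGen F r t := by
        simp [ChevalleyDatum.scGen, ChevalleyDatum.stX, PresentedGroup.of]
      rw [h1, SetLike.mem_coe]
      have hr : (r : ℕ) < tblD4.length := lt_of_lt_of_eq r.2 hlen.symm
      obtain ⟨i, j, hij, hk⟩ := tblD4_kinds _ (List.getElem_mem hr)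
      rcases hk with hk | hk | hk
      · rw [show ρ (chevD4.scGen F r t) = nkU (kA i j) (okA hij) (((tblD4[(r : ℕ)]).2 : F) * t) from
          Units.ext (by rw [hρ, repMat, List.getElem?_eq_getElem hr]; show nkMat (tblD4[(r : ℕ)]).1 _ = _; rw [hk]; rfl)]
        exact memA hij _
      · rw [show ρ (chevD4.scGen F r t) = nkU (kP i j) (okP hij) (((tblD4[(r : ℕ)]).2 : F) * t) from
          Units.ext (by rw [hρ, repMat, List.getElem?_eq_getElem hr]; show nkMat (tblD4[(r : ℕ)]).1 _ = _; rw [hk]; rfl)]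
        exact memP hij _
      · rw [show ρ (chevD4.scGen F r t) = nkU (kN i j) (okN hij) (((tblD4[(r : ℕ)]).2 : F) * t) from
          Units.ext (by rw [hρ, repMat, List.getElem?_eq_getElem hr]; show nkMat (tblD4[(r : ℕ)]).1 _ = _; rw [hk]; rfl)]
        exact memN hij _
    · rw [ED, Subgroup.closure_le]
      rintro g ⟨i, j, h, t, hg⟩
      obtain ⟨cA, cP, cN⟩ := tblD4_covers i j h
      rcases hg with rfl | rfl | rfl
      · rcases cA with c | c <;> exact hmem _ _ _ c (by norm_num) t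
      · rcases cP with c | c | c | c
        · exact hmem _ _ _ c (by norm_num) t
        · exact hmem _ _ _ c (by norm_num) t
        · exact hswap _ _ _ _ (okP h.symm) (okP h) (hmem _ _ _ c (by norm_num)) t
        · exact hswap _ _ _ _ (okP h.symm) (okP h) (hmem _ _ _ c (by norm_num)) t
      · rcases cN with c | c | c | c
        · exact hmem _ _ _ c (by norm_num) t
        · exact hmem _ _ _ c (by norm_num) t
        · exact hswap _ _ _ _ (okN h.symm) (okN h) (hmem _ _ _ c (by norm_num)) t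
        · exact hswap _ _ _ _ (okN h.symm) (okN h) (hmem _ _ _ c (by norm_num)) t
  suffices hne : ∃ x, ρ x ≠ 1 by
    obtain ⟨e, he⟩ := equiv_POmega_map sysD4 genOK_D4 ((sysD4.coverLift F).perfect_all' genOK_D4 perfAll_D4)
      (sysD4.simple_noncomm (sysD4.perfect_all perfAll_D4) connOK_D4 (by decide)).1 ρ hE ED_le_iso
      (fun g hg h hh => commutator_mem_ED (by norm_num) hg hh) hne
    refine ⟨e, fun r hr t => ?_⟩
    obtain ⟨A, hA, hA'⟩ := he (chevD4.scGen F r t)
    refine ⟨A, by rw [hA, hρ], ?_⟩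
    rw [← hA']
    refine congrArg e (Subtype.ext ?_)
    exact (((sysD4.{u}).coverLift F).π_x r hr t).symm
  have h01 : (0 : Fin 4) ≠ 1 := by decide
  obtain ⟨x, hx⟩ : nkU (kA (0 : Fin 4) 1) (okA h01) (1 : F) ∈ ρ.range := hE ▸ memA h01 1
  refine ⟨x, fun e => ?_⟩
  rw [e] at hx
  have := congrArg (fun u : GL (Fin 4 ⊕ Fin 4) F =>
    (u : Matrix (Fin 4 ⊕ Fin 4) (Fin 4 ⊕ Fin 4) F) (Sum.inl 0) (Sum.inl 1)) hx
  simp [kA, nkMat, Matrix.one_apply] at this


/-- The two kinds of entries of a root and of its negative. -/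
def negPair : NK (Fin 4 ⊕ Fin 4) → NK (Fin 4 ⊕ Fin 4) → Bool
  | .two a b c d, k => decide (k = .two b a d c) || decide (k = .two d c b a)
  | _, _ => false

/-- The certificate for the negative of a fundamental root. -/
def negOK (i : ℕ) : Bool :=
  match tblD4[chevD4.simple i]?, tblD4[chevD4.neg (chevD4.simple i)]? with
  | some p, some q => negPair p.1 q.1
  | _, _ => false

theorem tblD4_neg : ∀ i : Fin chevD4.rank, negOK (i : ℕ) = true := by decide +kernel

end CfsgLib.Chev.Natural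

namespace CfsgLib.AutPE.EightDiag

open QuadraticMap hiding proj
open Matrix
open CfsgLib.Forms CfsgLib.AutPO CfsgLib.Chev CfsgLib.Chev.Natural Cfsg.Lie

universe u

variable {F : Type u} [Field F] [Fintype F]

local notation "Qp" => (quadPlus F 4)
local notation "II" => (Fin 4 ⊕ Fin 4)
local notation "PΩ'" => (Cfsg.POmega F ⇑(quadPlus F 4))

/-- The weights attached to a table entry. -/
def kindWt (w : II → F) : NK II → F
  | .two a b _ _ => w a / w b
  | .three _ _ _ => 1

theorem nkMat_conj {w : II → F} (k : NK II) (hk : ∀ a b c d, k = .two a b c d → w c / w d = w a / w b)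
    (h3 : ∀ a z b, k ≠ .three a z b) (t : F) (hw : ∀ i, w i ≠ 0) :
    diagonal w * nkMat k t = nkMat k (kindWt w k * t) * diagonal w := by
  cases k with
  | three a z b => exact absurd rfl (h3 a z b)
  | two a b c d =>
    simp only [nkMat, kindWt]
    have h1 : w a / w b * w b = w a := div_mul_cancel₀ _ (hw b)
    have h2 : w a / w b * w d = w c := by rw [← hk a b c d rfl, div_mul_cancel₀ _ (hw d)]
    ext i j
    simp only [diagonal_mul, mul_diagonal, Matrix.sub_apply, Matrix.add_apply, Matrix.one_apply, Matrix.single_apply]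
    by_cases e : i = j <;> by_cases e1 : a = i ∧ b = j <;> by_cases e2 : c = i ∧ d = j <;>
      simp only [e, e1, e2, if_true, if_false] <;>
      (try obtain ⟨rfl, rfl⟩ := e1) <;> (try obtain ⟨rfl, rfl⟩ := e2) <;>
      grind

theorem kinds_wt {w : II → F} {μ : F} (hμ : μ ≠ 0) (hpair : ∀ i, w (Sum.inl i) * w (Sum.inr i) = μ) {p : NK II × ℤ}
    (hp : p ∈ tblD4) : ∀ a b c d, p.1 = .two a b c d → w c / w d = w a / w b := by
  have hr : ∀ i, w (Sum.inr i) ≠ 0 := fun i e => hμ (by rw [← hpair i, e, mul_zero])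
  have hl : ∀ i, w (Sum.inl i) ≠ 0 := fun i e => hμ (by rw [← hpair i, e, zero_mul])
  obtain ⟨i, j, -, hk⟩ := tblD4_kinds p hp
  intro a b c d e
  have hij := hpair i
  have hji := hpair j
  have := hr i
  have := hr j
  have := hl i
  have := hl j
  rcases hk with hk | hk | hk <;> rw [hk] at e <;> simp only [kA, kP, kN, NK.two.injEq] at e <;>
    obtain ⟨rfl, rfl, rfl, rfl⟩ := e <;> field_simp <;> linear_combination hji - hij

/-- A diagonal similarity induces a diagonal automorphism. -/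
theorem diag_to_chev (e : ↥(chevD4.group F) ≃* PΩ')
    (he : ∀ r < chevD4.nroots, ∀ t : F, ∃ A : Cfsg.Omega F ⇑Qp,
      (((A : Cfsg.isometryGroup F ⇑Qp) : GL II F) : Matrix II II F) = repMat tblD4 r t ∧
        e ((sysD4.{u}).xG r t) = QuotientGroup.mk A)
    (g : Simil.Sim Qp) {w : II → F} {μ : F} (hμ : μ ≠ 0) (hpair : ∀ i, w (Sum.inl i) * w (Sum.inr i) = μ)
    (hg : (g : GL II F).1 = diagonal w) :
    ∃ z, MulAut.congr e ((sysD4.{u}).diagHom z) = Simil.act Qp g := by
  have hw : ∀ i, w i ≠ 0 := fun i => by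
    rcases i with i | i <;> intro e0 <;> exact hμ (by rw [← hpair i, e0]; simp)
  let χ : ℕ → Fˣ := fun r => match tblD4[r]? with
    | some p => Units.mk0 (kindWt w p.1) (by rcases p.1 with ⟨a, b, c, d⟩ | ⟨a, z, b⟩ <;> simp [kindWt, hw])
    | none => 1
  have hconj : ∀ r < chevD4.nroots, ∀ t : F,
      (e.symm (Simil.act Qp g (e ((sysD4.{u}).xG r t)))) = (sysD4.{u}).xG r ((χ r : F) * t) := by
    intro r hr t
    obtain ⟨A, hA, hA'⟩ := he r hr t
    obtain ⟨B, hB, hB'⟩ := he r hr ((χ r : F) * t)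
    rw [MulEquiv.symm_apply_eq, hA', hB', Simil.act_mk]
    refine congrArg QuotientGroup.mk (Subtype.ext (Subtype.ext ?_))
    rw [Simil.coe_conjΩ, mul_inv_eq_iff_eq_mul]
    refine Units.ext ?_
    rw [Units.val_mul, Units.val_mul, hA, hB, hg]
    have hlen : tblD4.length = chevD4.nroots := by decide +kernel
    have hr' : r < tblD4.length := hlen ▸ hr
    have hχ : (χ r : F) = kindWt w (tblD4[r]).1 := by simp only [χ, List.getElem?_eq_getElem hr']; rfl
    simp only [repMat, List.getElem?_eq_getElem hr']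
    rw [hχ]
    have h3 : ∀ a z b, (tblD4[r]).1 ≠ .three a z b := fun a z b e0 => by
      obtain ⟨i, j, -, hk⟩ := tblD4_kinds _ (List.getElem_mem hr')
      rcases hk with hk | hk | hk <;> rw [hk] at e0 <;> cases e0
    have h4 := nkMat_conj (w := w) (tblD4[r]).1 (kinds_wt hμ hpair (List.getElem_mem hr')) h3
      (((tblD4[r]).2 : F) * t) hw
    rw [h4, show ((tblD4[r]).2 : F) * (kindWt w (tblD4[r]).1 * t) = kindWt w (tblD4[r]).1 * (((tblD4[r]).2 : F) * t) by ring]
  refine ⟨fun i => χ (chevD4.simple (i : ℕ)), ?_⟩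
  have hneg : ∀ i : Fin chevD4.rank, χ (chevD4.neg (chevD4.simple (i : ℕ))) = (χ (chevD4.simple (i : ℕ)))⁻¹ := by
    intro i
    have hc := tblD4_neg i
    rw [negOK] at hc
    split at hc
    · rename_i p q hp hq
      have hpm : p ∈ tblD4 := List.mem_of_getElem? hp
      refine Units.ext ?_
      simp only [χ, hp, hq, Units.val_inv_eq_inv_val, Units.val_mk0]
      rcases hk : p.1 with ⟨a, b, c, d⟩ | ⟨a, z, b⟩
      · rw [hk] at hc
        simp only [negPair, Bool.or_eq_true, decide_eq_true_eq] at hc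
        rcases hc with hc | hc <;> rw [hc] <;> simp only [kindWt, inv_div]
        rw [← inv_div (w c) (w d), kinds_wt hμ hpair hpm a b c d hk, inv_div]
      · rw [hk] at hc
        simp [negPair] at hc
    · exact absurd hc (by simp)
  have key : (sysD4.{u}).diagHom (fun i => χ (chevD4.simple (i : ℕ))) = MulAut.congr e.symm (Simil.act Qp g) :=
    (sysD4.{u}).aut_ext fun i t => by
      have hs := (sysD4.{u}).simple_lt i.2
      have hext : Sys.extVal chevD4 F (fun j => χ (chevD4.simple (j : ℕ))) i = χ (chevD4.simple (i : ℕ)) :=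
        Sys.extVal_apply _ i
      refine ⟨?_, ?_⟩
      · rw [Sys.diagHom_apply, (sysD4.{u}).diagAut_xG _ hs, (sysD4.{u}).chi_simple _ i.2, hext]
        exact (hconj _ hs t).symm
      · rw [Sys.diagHom_apply, (sysD4.{u}).diagAut_xG _ ((sysD4.{u}).neg_lt hs), (sysD4.{u}).chi_neg _ hs,
          (sysD4.{u}).chi_simple _ i.2, hext, ← hneg i]
        exact (hconj _ ((sysD4.{u}).neg_lt hs) t).symm
  rw [key]
  exact MulEquiv.ext fun x => by simp [MulAut.congr]

/-- The inner-diagonal group in dimension eight is normal in the automorphism group. -/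
theorem inndiag_normal (hodd : Odd (Fintype.card F)) (hg : Simil.Good Qp) :
    ((Simil.sign hg).ker.map (Simil.act Qp)).Normal := by
  obtain ⟨hc2, h2⟩ := Simil.two_ne_of_odd (F := F) hodd
  have hmap := d4_equiv_map F
  rw [← coe_quadPlus] at hmap
  obtain ⟨e, he⟩ := hmap
  set P := (Simil.sign hg).ker.map (Simil.act Qp)
  set D := ((sysD4.{u}).outDiag (F := F)).range
  haveI hDn : D.Normal := (sysD4.{u}).outDiag_normal
  set N := (D.comap (QuotientGroup.mk' (Cfsg.Inn (chevD4.group F)))).map (MulAut.congr e).toMonoidHom with hN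
  haveI hNn : N.Normal := Subgroup.Normal.map (Subgroup.Normal.comap hDn _) _ (MulAut.congr e).surjective
  have hinnN : Cfsg.Inn PΩ' ≤ N := by
    rintro _ ⟨y, rfl⟩
    refine ⟨MulAut.conj (e.symm y), ?_, MulEquiv.ext fun x => by simp [MulAut.congr]⟩
    show QuotientGroup.mk' _ (MulAut.conj (e.symm y)) ∈ D
    rw [show QuotientGroup.mk' (Cfsg.Inn (chevD4.group F)) (MulAut.conj (e.symm y)) = 1 from
      (QuotientGroup.eq_one_iff _).2 ⟨_, rfl⟩]
    exact one_mem _
  have hdiag : ∀ (g : Simil.Sim Qp) (w : II → F) (μ : F), μ ≠ 0 → (∀ i, w (Sum.inl i) * w (Sum.inr i) = μ) →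
      (g : GL II F).1 = diagonal w → Simil.act Qp g ∈ N := fun g w μ hμ hp hgw => by
    obtain ⟨z, hz⟩ := diag_to_chev e he g hμ hp hgw
    exact ⟨_, ⟨z, rfl⟩, hz⟩
  -- the two diagonal generators
  obtain ⟨ν, hν⟩ := FiniteField.exists_nonsquare hc2
  have hν0 : ν ≠ 0 := fun e => hν (e ▸ IsSquare.zero)
  let G : GL II F := Matrix.GeneralLinearGroup.mkOfDetNeZero
    (diagonal (Sum.elim (fun _ => ν) fun _ => 1)) (by simp [det_diagonal, hν0])
  have hGq : ∀ v, Qp (G.1 *ᵥ v) = ν * Qp v := fun v => by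
    have hG : ∀ i, (G.1 *ᵥ v) i = Sum.elim (fun _ => ν) (fun _ => (1 : F)) i * v i := fun i => by
      show (diagonal _ *ᵥ v) i = _
      rw [mulVec_diagonal]
    simp [Cfsg.quadFormPlus, hG, Finset.mul_sum, mul_assoc]
  let g₀ : Simil.Sim Qp := ⟨G, Units.mk0 ν hν0, hGq⟩
  have hμ₀ : (Simil.mult hg g₀ : F) = ν := by
    obtain ⟨u, hu⟩ := Simil.exists_value_one hg
    have h1 := Simil.mult_spec hg g₀ u
    rw [show (g₀ : GL II F) = G from rfl, hGq, hu, mul_one, mul_one] at h1
    exact h1.symm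
  have hs₀ : Simil.sign hg g₀ = 1 := Units.ext (by
    rw [Simil.sign_val hg, hμ₀, Units.val_one,
      show (g₀ : GL II F).1 = diagonal (Sum.elim (fun _ => ν) fun _ => (1 : F)) from rfl,
      det_diagonal, Fintype.prod_sum_type]
    simp [hν0])
  have hg₀N : Simil.act Qp g₀ ∈ N := hdiag g₀ _ ν hν0 (fun i => by simp) rfl
  let d : Fin 4 → F := fun i => if i = 0 then ν else 1
  have hd0 : ∀ i, d i ≠ 0 := fun i => by by_cases h : i = 0 <;> simp [d, h, hν0]
  let w : II → F := Sum.elim d fun j => (d j)⁻¹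
  let K : GL II F := Matrix.GeneralLinearGroup.mkOfDetNeZero (diagonal w) (by
    simp only [det_diagonal]
    exact Finset.prod_ne_zero_iff.2 fun i _ => by rcases i with i | i <;> simp [w, hd0])
  have hK : ∀ v i, (K.1 *ᵥ v) i = w i * v i := fun v i => by
    show (diagonal _ *ᵥ v) i = _
    rw [mulVec_diagonal]
  have hKq : K ∈ Cfsg.isometryGroup F ⇑Qp := mem_isometryGroup.2 fun v => by
    rw [coe_quadPlus]
    simp only [Cfsg.quadFormPlus, hK, w, Sum.elim_inl, Sum.elim_inr]
    exact Finset.sum_congr rfl fun i _ => by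
      have := hd0 i
      field_simp
  set k : Cfsg.isometryGroup F ⇑Qp := ⟨K, hKq⟩
  have hkN : Simil.act Qp (Simil.ofIso k) ∈ N := hdiag _ w 1 one_ne_zero (fun i => by simp [w, hd0]) rfl
  have hprod : ∏ i, d i = ν := by simp [d]
  have hkd : (k : GL II F).1.det = 1 := by
    show (diagonal w).det = 1
    rw [det_diagonal, Fintype.prod_sum_type]
    simp only [w, Sum.elim_inl, Sum.elim_inr, Finset.prod_inv_distrib, hprod]
    exact mul_inv_cancel₀ hν0
  have hkO : k ∉ Cfsg.Omega F ⇑Qp := fun hk => hν (by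
    rw [← hprod]; exact (diag_mem_Omega_iff (by norm_num) d hd0 (k := k) hK).1 hk)
  have hsq : ∀ g : Simil.Sim Qp, Simil.sign hg g = 1 → IsSquare (Simil.mult hg g : F) → Simil.act Qp g ∈ N := by
    intro g h1 hs
    obtain ⟨j, hj, ej⟩ := exists_iso_of_sign hg h1 hs
    rw [ej]
    rcases Simil.special_dichotomy hg hkd hkO hj with h | h
    · exact hinnN ((Simil.mem_inn_iff _).2 ⟨j, h, rfl⟩)
    · have h' := hinnN ((Simil.mem_inn_iff _).2 ⟨_, h, rfl⟩)
      rw [map_mul, map_mul] at h'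
      exact (Subgroup.mul_mem_cancel_right N hkN).1 h'
  have hPN : P ≤ N := by
    rintro _ ⟨g, hgs, rfl⟩
    by_cases hs : IsSquare (Simil.mult hg g : F)
    · exact hsq g (MonoidHom.mem_ker.1 hgs) hs
    · have h1 := hsq (g * g₀⁻¹) (by rw [map_mul, map_inv, MonoidHom.mem_ker.1 hgs, hs₀, inv_one, one_mul]) (by
        rw [map_mul, map_inv, Units.val_mul, Units.val_inv_eq_inv_val,
          isSquare_mul_iff' (Simil.mult hg g).ne_zero (inv_ne_zero (Simil.mult hg g₀).ne_zero), isSquare_inv, hμ₀]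
        exact iff_of_false hs hν)
      rw [map_mul, map_inv] at h1
      exact (Subgroup.mul_mem_cancel_right N (inv_mem hg₀N)).1 h1
  -- the orders agree
  haveI : Finite (MulAut PΩ') := Finite.of_injective _ DFunLike.coe_injective
  obtain ⟨φ, hφs, hφk⟩ := (plus_mod_inner hodd (by norm_num) hg).2.2 ⟨2, rfl⟩
  have hcardP : Nat.card P = 4 * Nat.card (Cfsg.Inn PΩ') := by
    rw [Subgroup.card_eq_card_quotient_mul_card_subgroup φ.ker,
      Nat.card_congr (QuotientGroup.quotientKerEquivOfSurjective φ hφs).toEquiv, hφk,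
      Nat.card_congr (Subgroup.subgroupOfEquivOfLe (PlusFld.inn_le_sign hg)).toEquiv,
      Nat.card_congr Multiplicative.toAdd, Nat.card_prod, Nat.card_zmod]
  have hcardN : Nat.card N = 4 * Nat.card (Cfsg.Inn PΩ') := by
    have hmapInn : Nat.card (Cfsg.Inn (chevD4.group F)) = Nat.card (Cfsg.Inn PΩ') := by
      have hmap : (Cfsg.Inn (chevD4.group F)).map (MulAut.congr e).toMonoidHom = Cfsg.Inn PΩ' := by
        refine le_antisymm ?_ ?_
        · rintro _ ⟨_, ⟨y, rfl⟩, rfl⟩
          exact ⟨e y, MulEquiv.ext fun z => by simp [MulAut.congr]⟩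
        · rintro _ ⟨y, rfl⟩
          exact ⟨_, ⟨e.symm y, rfl⟩, MulEquiv.ext fun z => by simp [MulAut.congr]⟩
      rw [← hmap, Subgroup.card_map_of_injective (MulAut.congr e).injective]
    have hD : Nat.card D = 4 := by
      rw [(sysD4.{u}).card_outDiag_eq torD4 (by decide), Nat.card_eq_fintype_card]
      show (∏ i : Fin 4, (Fintype.card F - 1).gcd (([1, 1, 2, 2] : List ℕ).getD i 0)) = 4
      have : Nat.gcd (Fintype.card F - 1) 2 = 2 := Nat.gcd_eq_right (by
        obtain ⟨j, hj⟩ := hodd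
        omega)
      simp [Fin.prod_univ_succ, this]
    let π := (QuotientGroup.mk' (Cfsg.Inn (chevD4.group F))).subgroupComap D
    rw [hN, Subgroup.card_map_of_injective (MulAut.congr e).injective,
      Subgroup.card_eq_card_quotient_mul_card_subgroup π.ker,
      Nat.card_congr (QuotientGroup.quotientKerEquivOfSurjective π
        (MonoidHom.subgroupComap_surjective_of_surjective _ _ (QuotientGroup.mk'_surjective _))).toEquiv,
      hD, ← hmapInn]
    congr 1
    refine Nat.card_congr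
      { toFun := fun x => ⟨x.1.1, (QuotientGroup.eq_one_iff _).1 (congrArg Subtype.val (MonoidHom.mem_ker.1 x.2))⟩
        invFun := fun y => ⟨⟨y.1, ?_⟩, ?_⟩
        left_inv := fun _ => rfl
        right_inv := fun _ => rfl }
    · show QuotientGroup.mk' _ y.1 ∈ D
      rw [show QuotientGroup.mk' (Cfsg.Inn (chevD4.group F)) y.1 = 1 from (QuotientGroup.eq_one_iff _).2 y.2]
      exact one_mem _
    · exact MonoidHom.mem_ker.2 (Subtype.ext ((QuotientGroup.eq_one_iff _).2 y.2))
  rw [Subgroup.eq_of_le_of_card_ge hPN (hcardN.trans hcardP.symm).le]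
  exact hNn

end CfsgLib.AutPE.EightDiag
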