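import Cfsg.Agent.AutPE.PlusSplitField
import Cfsg.Agent.AutPE.EightInndiag
set_option autoImplicit false
set_option quotPrecheck false
set_option linter.unusedSectionVars false

/-!
The class of field automorphisms of prime order of the plus-type group, `m ≥ 4`.
-/

namespace CfsgLib.AutPE.PlusFld

open QuadraticMap hiding proj
open Matrix
open CfsgLib.Forms CfsgLib.AutPO

universe u v

variable {F : Type u} [Field F] [Fintype F] {m : ℕ}

local notation "Qp" => (quadPlus F m)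
local notation "PΩ'" => (Cfsg.POmega F ⇑(quadPlus F m))
local notation "Pr" => classSub (⇑(quadPlus F m)) (Cfsg.PreservesSingularClasses ⇑(quadPlus F m))
local notation "II" => (Fin m ⊕ Fin m)

theorem inndiag_normal_all (hm : 4 ≤ m) : (Pr).Normal := by
  rcases (show m = 4 ∨ 5 ≤ m by omega) with rfl | h5
  · rcases odd_card_or_two (F := F) with ⟨hodd, -⟩ | h2
    · rw [inndiag_plus_eq hodd (by norm_num) (Simil.good_plus hodd (by norm_num))]
      exact EightDiag.inndiag_normal hodd _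
    · rw [inndiag_plus_two h2 (by norm_num)]
      exact innNormal _
  · exact (pr_proper h5).normal

/-- The standard field automorphisms act faithfully. -/
theorem fieldP_eq_one (hm : 3 ≤ m) {τ : RingAut F} (h : fieldP (m := m) τ = 1) : τ = 1 := by
  refine RingEquiv.ext fun t => ?_
  show τ t = t
  let i0 : Fin m := ⟨0, by omega⟩
  let i1 : Fin m := ⟨1, by omega⟩
  have hne : i0 ≠ i1 := by simp [i0, i1]
  set d : II → F := Pi.single (Sum.inl i0) 1 with hd'
  set a : II → F := Pi.single (Sum.inl i1) t with ha'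
  have hd : Qp d = 0 := by simp [d, Cfsg.quadFormPlus]
  have had : polar (⇑Qp) a d = 0 := by simp [a, d, polar_plus, Pi.single_apply]
  obtain ⟨A, hA⟩ : ∃ A : Cfsg.Omega F ⇑Qp, ∀ v, lin A v = siegel Qp d a hd had v := by
    refine ⟨⟨(isoEquiv Qp).symm ⟨siegel Qp d a hd had, siegel_mem_isom hd had⟩, ?_⟩, fun v => ?_⟩
    · rw [mem_Omega_iff, MulEquiv.apply_symm_apply]
      exact siegel_mem_commutator (nondegenerate_quadPlus m) (by simp; omega) hd had
    · show glEquiv (((isoEquiv Qp).symm _ : Cfsg.isometryGroup F ⇑Qp) : GL II F) v = _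
      rw [← coe_isoEquiv, MulEquiv.apply_symm_apply]
  have h1 : stdAut (isSemi_plus (m := m) τ) (proj A) = proj A := DFunLike.congr_fun h (proj A)
  rw [stdAut_proj] at h1
  have h2 := (QuotientGroup.eq.1 h1 : _ ∈ Subgroup.center (Cfsg.Omega F ⇑Qp))
  obtain ⟨c, hc, hcv⟩ : ∃ c : F, (c = 1 ∨ c = -1) ∧
      ∀ v, lin ((semiΩ (isSemi_plus (m := m) τ) A)⁻¹ * A) v = c • v := by
    rcases CfsgLib.OrthOrder.coe_center_Omega (nondegenerate_quadPlus m) (by simp; omega) h2 with e | e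
    · exact ⟨1, Or.inl rfl, fun v => by rw [lin_apply, e, one_mulVec, one_smul]⟩
    · exact ⟨-1, Or.inr rfl, fun v => by rw [lin_apply, e, neg_mulVec, one_mulVec, neg_one_smul]⟩
  set v : II → F := Pi.single (Sum.inr i1) 1 with hv'
  have hsv : semi (1 : GL II F) τ v = v := by
    rw [semi_one']
    funext l
    by_cases hl : l = Sum.inr i1 <;> simp [v, hl]
  have h3 := congrArg (lin (semiΩ (isSemi_plus (m := m) τ) A)) (hcv v)
  rw [lin_mul, lin_apply_inv, map_smul] at h3
  have h4 := lin_semiΩ (isSemi_plus (m := m) τ) A v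
  rw [hsv] at h4
  rw [h4, hA, semi_one', siegel_apply] at h3
  have hva : polar (⇑Qp) v a = t := by simp [v, a, polar_plus, Pi.single_apply]
  have hvd : polar (⇑Qp) v d = 0 := by simp [v, d, polar_plus, Pi.single_apply, hne.symm]
  rw [hva, hvd] at h3
  have e1 := congrFun h3 (Sum.inr i1)
  have e2 := congrFun h3 (Sum.inl i0)
  simp [v, d, Pi.single_apply] at e1 e2
  rw [← e1, one_mul] at e2
  exact e2.symm

theorem field_facts {p f : ℕ} [Fact p.Prime] (hF : Fintype.card F = p ^ f) (hm : 4 ≤ m)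
    {r : ℕ} (hr : r.Prime) (F₀ : Type v) [Field F₀] [Fintype F₀] (hF₀ : Fintype.card F₀ = p ^ (f / r))
    {x : MulAut PΩ'} (hx : Cfsg.IsFieldAutClassPOmega (⇑Qp) x) (hxr : orderOf x = r) :
    r ∣ f ∧
    Nonempty (↥(Pr ⊓ Subgroup.centralizer {x}) ≃*
      ↥(classSub (⇑(quadPlus F₀ m)) (Cfsg.PreservesSingularClasses ⇑(quadPlus F₀ m)))) ∧
    ((Odd r ∨ p = 2) → Cfsg.splitClassCount Pr (Cfsg.Inn PΩ') x = 1) ∧
    ((r = 2 ∧ p ≠ 2 ∧ Odd m ∧ p ^ (f / 2) % 4 = 1) → Cfsg.splitClassCount Pr (Cfsg.Inn PΩ') x = 2) ∧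
    ((r = 2 ∧ p ≠ 2 ∧ ¬ (Odd m ∧ p ^ (f / 2) % 4 = 1)) → Cfsg.splitClassCount Pr (Cfsg.Inn PΩ') x = 4) := by
  obtain ⟨α, ψ, σ, hσ, hψ, e⟩ := hx
  rw [eq_fieldP hψ] at e
  haveI : Fact r.Prime := ⟨hr⟩
  have hord : orderOf (fieldP (m := m) σ) = r := by
    rw [← e, ← hxr]
    exact orderOf_injective (MulAut.conj α).toMonoidHom (MulAut.conj α).injective x
  have hσr : orderOf (σ : RingAut F) = r := by
    rw [← hord]
    exact (orderOf_injective (fieldP (F := F) (m := m)) ((injective_iff_map_eq_one _).2 fun τ hτ => fieldP_eq_one (by omega) hτ) σ).symm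
  obtain ⟨hrf, hfield⟩ := CfsgLib.AutPSL.fixed_field_facts (Fact.out : p.Prime) hF σ
  rw [hσr] at hrf hfield
  obtain ⟨φ, hfix⟩ := hfield F₀ hF₀
  haveI hPn : (Pr).Normal := inndiag_normal_all hm
  haveI := innNormal PΩ'
  have hsplit : Cfsg.splitClassCount Pr (Cfsg.Inn PΩ') x = Cfsg.splitClassCount Pr (Cfsg.Inn PΩ') (fieldP σ) := by
    rw [← e, CfsgLib.AutPSL.splitClassCount_conj]
  have hmap : (Pr ⊓ Subgroup.centralizer {x}).map (MulAut.conj α).toMonoidHom =
      Pr ⊓ Subgroup.centralizer {(fieldP σ : MulAut PΩ')} := by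
    ext y
    rw [Subgroup.mem_map_equiv, MulAut.conj_symm_apply, Subgroup.mem_inf, Subgroup.mem_inf,
      Subgroup.mem_centralizer_singleton_iff, Subgroup.mem_centralizer_singleton_iff, ← e]
    refine and_congr ⟨fun h => ?_, fun h => ?_⟩ ⟨fun h => ?_, fun h => ?_⟩
    · have := hPn.conj_mem _ h α
      rwa [show α * (α⁻¹ * y * α) * α⁻¹ = y by group] at this
    · have := hPn.conj_mem _ h α⁻¹
      rwa [inv_inv] at this
    · calc y * (α * x * α⁻¹) = α * ((α⁻¹ * y * α) * x) * α⁻¹ := by group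
        _ = _ := by rw [h]; group
    · calc α⁻¹ * y * α * x = α⁻¹ * (y * (α * x * α⁻¹)) * α := by group
        _ = _ := by rw [h]; group
  let E := (Subgroup.equivMapOfInjective (Pr ⊓ Subgroup.centralizer {x}) (MulAut.conj α).toMonoidHom
    (MulAut.conj α).injective).trans (MulEquiv.subgroupCongr hmap)
  refine ⟨hrf, ?_, ?_⟩
  · rcases odd_card_or_two (F := F) with ⟨hodd, h2⟩ | h2
    · have hodd₀ : Odd (Fintype.card F₀) := by
        rcases odd_card_or_two (F := F₀) with ⟨h, -⟩ | h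
        · exact h
        · exact absurd (by rw [← map_ofNat φ 2, h, map_zero]) h2
      obtain ⟨E'⟩ := centralizer_odd hfix hodd hodd₀ (by omega : 3 ≤ m)
      exact ⟨E.trans E'⟩
    · obtain ⟨E'⟩ := centralizer_two hfix h2 (by omega : 3 ≤ m)
      exact ⟨E.trans E'⟩
  rw [hsplit]
  by_cases hp : p = 2
  · refine ⟨fun _ => ?_, fun h => absurd hp h.2.1, fun h => absurd hp h.2.1⟩
    haveI : CharP F p := charP_of_card_eq_prime_pow hF
    subst hp
    rw [show Pr = Cfsg.Inn PΩ' from inndiag_plus_two CharTwo.two_eq_zero (by omega)]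
    exact split_inn _ _
  have hpo : Odd p := (Fact.out : p.Prime).odd_of_ne_two hp
  have hodd : Odd (Fintype.card F) := by rw [hF]; exact hpo.pow
  have hodd₀ : Odd (Fintype.card F₀) := by rw [hF₀]; exact hpo.pow
  have hg := Simil.good_plus hodd (m := m) (by omega)
  have hg₀ := Simil.good_plus hodd₀ (m := m) (by omega)
  rw [inndiag_plus_eq hodd (by omega : 3 ≤ m) hg]
  refine ⟨?_, ?_⟩
  · rintro (ho | h)
    · exact field_split_one hfix (by omega) hg hg₀ (hσr ▸ ho)
    · exact absurd h hp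
  by_cases hr2 : r = 2
  · subst hr2
    obtain ⟨h2', h4'⟩ := field_split_two hfix (by omega : 3 ≤ m) hodd hodd₀
      (by rw [hF, hF₀, ← pow_mul, Nat.div_mul_cancel hrf]) hg hg₀
    rw [hF₀] at h2' h4'
    exact ⟨fun h => h2' ⟨h.2.2.1, h.2.2.2⟩, fun h => h4' h.2.2⟩
  · exact ⟨fun h => absurd h.1 hr2, fun h => absurd h.1 hr2⟩

end CfsgLib.AutPE.PlusFld
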