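import Cfsg.Agent.AutPE.FieldType
import Cfsg.Agent.AutPE.GraphStd
set_option autoImplicit false
set_option quotPrecheck false
set_option linter.unusedSectionVars false

/-!
Fixed points of a standard field automorphism of the plus-type group, in every dimension `2m ≥ 6`.
-/

namespace CfsgLib.AutPE.PlusFld

open QuadraticMap hiding proj
open Matrix
open CfsgLib.Forms CfsgLib.AutPO

universe u v

variable {F : Type u} [Field F] [Fintype F] {F₀ : Type v} [Field F₀] [Fintype F₀] {m : ℕ} {σ : RingAut F}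
  {φ : F₀ →+* F}

local notation "Qp" => (quadPlus F m)
local notation "Q0" => (quadPlus F₀ m)
local notation "PΩ'" => (Cfsg.POmega F ⇑(quadPlus F m))
local notation "Pr" => classSub (⇑(quadPlus F m)) (Cfsg.PreservesSingularClasses ⇑(quadPlus F m))
local notation "Pr0" => classSub (⇑(quadPlus F₀ m)) (Cfsg.PreservesSingularClasses ⇑(quadPlus F₀ m))
local notation "II" => (Fin m ⊕ Fin m)

theorem sign_of_act_one (hg : Simil.Good Qp) {z : Simil.Sim Qp} (hz : Simil.act Qp z = 1) :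
    Simil.sign hg z = 1 :=
  ((Simil.invariant_eq_one hg z).1 ((Simil.invariant_ker_iff hg z).2
    ⟨1, one_mem _, by rw [map_one, hz]⟩)).2

theorem inn_le_sign (hg : Simil.Good Qp) :
    Cfsg.Inn PΩ' ≤ (Simil.sign hg).ker.map (Simil.act Qp) := fun β hβ => by
  obtain ⟨w, hw, rfl⟩ := (Simil.mem_inn_iff β).1 hβ
  obtain ⟨l, hl⟩ := exists_list hg.nondeg (Simil.hq hg) w
  refine ⟨_, MonoidHom.mem_ker.2 (Units.ext ?_), rfl⟩
  rw [Simil.sign_val hg, Simil.mult_ofIso hg, Units.val_one, one_pow, div_one]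
  exact (Simil.det_one_iff_even hg hl).2 ((mem_Omega_of_list hg.nondeg (Simil.hq hg) hl).1 hw).1

/-- Applying the field automorphism to the entries of a similarity. -/
theorem exists_twist (σ : RingAut F) (g : Simil.Sim Qp) :
    ∃ g' : Simil.Sim Qp,
      (∀ v, (g' : GL II F).1 *ᵥ (σ ∘ v) = σ ∘ ((g : GL II F).1 *ᵥ v)) ∧
      fieldP σ * Simil.act Qp g = Simil.act Qp g' * fieldP σ := by
  obtain ⟨μ, hμ⟩ := g.2
  have hs := isSemi_plus (m := m) σ
  have hmem : semiGL (1 : GL II F) σ (g : GL II F) ∈ Simil.Sim Qp :=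
    ⟨Units.map (σ : F →+* F).toMonoidHom μ, fun v => by
      obtain ⟨w, rfl⟩ := semi_surjective (1 : GL II F) σ v
      rw [semiGL_mulVec, hs.2, hs.2, hμ, map_mul, one_mul, one_mul]
      rfl⟩
  refine ⟨⟨_, hmem⟩, fun v => ?_, ?_⟩
  · have h1 := semiGL_mulVec (1 : GL II F) σ (g : GL II F) v
    rwa [semi_one', semi_one'] at h1
  · obtain ⟨k₁, h₁⟩ := isSemi_sim g
    obtain ⟨k₂, h₂⟩ := isSemi_sim (⟨_, hmem⟩ : Simil.Sim Qp)
    rw [act_eq_stdAut hmem h₂, show Simil.act Qp g = stdAut h₁ from act_eq_stdAut g.2 h₁]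
    show stdAut hs * _ = _ * stdAut hs
    rw [← stdAut_comp', ← stdAut_comp']
    refine stdAut_congr _ _ fun v => ?_
    rw [semi_compGL, semi_compGL]
    show semi (1 : GL II F) σ ((g : GL II F).1 *ᵥ v) = (semiGL (1 : GL II F) σ (g : GL II F)).1 *ᵥ semi _ σ v
    rw [semiGL_mulVec]

variable (hfix : ∀ c, σ c = c ↔ c ∈ Set.range φ)
include hfix

omit hfix in
theorem conjS_plus (hfix : ∀ c, σ c = c ↔ c ∈ Set.range φ) (x : GL II F) (v : II → F) :
    ((plusFrame (m := m) hfix).conjS x).1 *ᵥ v = x.1 *ᵥ v :=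
  (plusFrame (m := m) hfix).conjS_mulVec x v

theorem T_mem_centralizer (x : Simil.Sim Q0) :
    (plusFrame (m := m) hfix).T x ∈ Subgroup.centralizer {(fieldP σ : MulAut PΩ')} :=
  Subgroup.mem_centralizer_singleton_iff.2 ((plusFrame (m := m) hfix).commute_T hfix x).eq

/-- A scalar lift comes from a scalar. -/
theorem scalar_of_lift (hm : 0 < m) (x : Simil.Sim Q0) {c : F} (h : ∀ v, (((plusFrame (m := m) hfix).lift x : Simil.Sim Qp) :
    GL II F).1 *ᵥ v = c • v) : ∃ c₀ : F₀, φ c₀ = c ∧ ∀ v, (x : GL II F₀).1 *ᵥ v = c₀ • v := by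
  have key : ∀ v : II → F₀, φ ∘ ((x : GL II F₀).1 *ᵥ v) = c • (φ ∘ v) := fun v => by
    have h1 := (plusFrame (m := m) hfix).lift_mulVec x v
    rw [h] at h1
    exact h1.symm
  obtain ⟨i⟩ : Nonempty II := ⟨Sum.inl ⟨0, hm⟩⟩
  have h1 := congrFun (key (Pi.single i 1)) i
  simp only [Function.comp_apply, Pi.smul_apply, Pi.single_eq_same, map_one, smul_eq_mul, mul_one] at h1
  refine ⟨_, h1, fun v => funext fun j => φ.injective ?_⟩
  have h2 := congrFun (key v) j
  simp only [Function.comp_apply, Pi.smul_apply, smul_eq_mul] at h2 ⊢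
  rw [h2, map_mul, h1]

omit hfix in
theorem exists_rat_matrix (hfix : ∀ c, σ c = c ↔ c ∈ Set.range φ) {M : Matrix II II F}
    (hM : ∀ i j, σ (M i j) = M i j) : ∃ d : Matrix II II F₀, φ.mapMatrix d = M := by
  choose d hd using fun i j => (hfix _).1 (hM i j)
  exact ⟨Matrix.of d, Matrix.ext hd⟩

omit hfix in
theorem entries_of_twist {M N : Matrix II II F} (h : ∀ v, N *ᵥ (σ ∘ v) = σ ∘ (M *ᵥ v)) (i j : II) :
    σ (M i j) = N i j := by
  have h1 := congrFun (h (Pi.single j 1)) i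
  rw [show σ ∘ (Pi.single j 1 : II → F) = Pi.single j 1 from funext fun l => by
    by_cases hl : l = j <;> simp [hl]] at h1
  simpa using h1.symm

/-- A similarity with rational entries comes from the small form. -/
theorem exists_lift_rat (hm : 1 ≤ m) (g : Simil.Sim Qp) (hM : ∀ i j, σ ((g : GL II F).1 i j) = (g : GL II F).1 i j) :
    ∃ x : Simil.Sim Q0, (plusFrame (m := m) hfix).lift x = g := by
  obtain ⟨d, hd⟩ := exists_rat_matrix hfix hM
  have hdet : d.det ≠ 0 := fun h0 => by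
    have h1 := congrArg Matrix.det hd
    rw [← RingHom.map_det, h0, map_zero] at h1
    exact (g : GL II F).det_ne_zero h1.symm
  set x : GL II F₀ := Matrix.GeneralLinearGroup.mkOfDetNeZero d hdet
  have hx : ∀ v : II → F₀, (g : GL II F).1 *ᵥ (φ ∘ v) = φ ∘ (d *ᵥ v) := fun v => by
    rw [← hd]
    exact (funext fun i => (RingHom.map_mulVec φ d v i)).symm
  have hQ : ∀ v : II → F₀, Qp (φ ∘ v) = φ (Q0 v) := fun v => by
    have h1 := (plusFrame (m := m) hfix).hS v
    exact h1.trans (one_mul _)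
  obtain ⟨μ, hμ⟩ := g.2
  have hq : ∀ v, φ (Q0 (d *ᵥ v)) = (μ : F) * φ (Q0 v) := fun v => by rw [← hQ, ← hx, hμ, hQ]
  have hu : Q0 (v₀ hm) = 1 := quad_v₀ hm
  have hc : φ (Q0 (d *ᵥ v₀ hm)) = μ := by rw [hq, hu, map_one, mul_one]
  have hc0 : Q0 (d *ᵥ v₀ hm) ≠ 0 := fun e => μ.ne_zero (by rw [← hc, e, map_zero])
  have hxs : x ∈ Simil.Sim Q0 := ⟨Units.mk0 _ hc0, fun v => φ.injective (by
    rw [map_mul, Units.val_mk0, hc]
    exact hq v)⟩
  refine ⟨⟨x, hxs⟩, Subtype.ext (Units.ext (Matrix.ext_iff_mulVec.2 fun v => ?_))⟩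
  rw [Frame.coe_lift, conjS_plus hfix]
  show (φ.mapMatrix d) *ᵥ v = _
  rw [hd]

/-- The centraliser in odd characteristic. -/
theorem centralizer_odd (hodd : Odd (Fintype.card F)) (hodd₀ : Odd (Fintype.card F₀)) (hm : 3 ≤ m) :
    Nonempty (↥(Pr ⊓ Subgroup.centralizer {(fieldP σ : MulAut PΩ')}) ≃* ↥Pr0) := by
  have hg := Simil.good_plus hodd hm
  have hg₀ := Simil.good_plus hodd₀ hm
  rw [inndiag_plus_eq hodd hm hg, inndiag_plus_eq hodd₀ hm hg₀]
  set D := plusFrame (F₀ := F₀) (m := m) hfix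
  set G := (Simil.sign hg₀).ker
  set C := (Simil.sign hg).ker.map (Simil.act Qp) ⊓ Subgroup.centralizer {(fieldP σ : MulAut PΩ')}
  let α : ↥G →* ↥(G.map (Simil.act Q0)) :=
    ((Simil.act Q0).comp G.subtype).codRestrict _ fun x => ⟨x.1, x.2, rfl⟩
  have hα : Function.Surjective α := fun ⟨_, x, hx, e⟩ => ⟨⟨x, hx⟩, Subtype.ext e⟩
  let ψ : ↥G →* ↥C := (D.T.comp G.subtype).codRestrict _ fun x =>
    ⟨⟨D.lift x.1, MonoidHom.mem_ker.2 (Units.ext (by
      rw [D.sign_lift hg hg₀, MonoidHom.mem_ker.1 x.2, Units.val_one, map_one, Units.val_one])), rfl⟩,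
      T_mem_centralizer hfix x.1⟩
  have hψ : Function.Surjective ψ := by
    rintro ⟨_, ⟨g, hgs, rfl⟩, hc⟩
    obtain ⟨g', hg', e⟩ := exists_twist σ g
    rw [← Subgroup.mem_centralizer_singleton_iff.1 hc, mul_left_inj] at e
    obtain ⟨c, hc'⟩ := (Simil.act_eq_one_iff hg (g⁻¹ * g')).1 (by rw [map_mul, map_inv, e, inv_mul_cancel])
    have hce : ∀ i j, σ ((g : GL II F).1 i j) = (c : F) * (g : GL II F).1 i j := fun i j => by
      have h1 : (g' : GL II F) = (g : GL II F) * Matrix.GeneralLinearGroup.scalar II c := by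
        rw [← hc', Subgroup.coe_mul, Subgroup.coe_inv, mul_inv_cancel_left]
      rw [entries_of_twist hg' i j, h1, Units.val_mul]
      simp [Matrix.GeneralLinearGroup.scalar, Matrix.mul_diagonal, mul_comm]
    obtain ⟨i, j, hij⟩ : ∃ i j, (g : GL II F).1 i j ≠ 0 := by
      by_contra h'
      push Not at h'
      haveI : Nonempty II := ⟨Sum.inl ⟨0, by omega⟩⟩
      exact (g : GL II F).ne_zero (Matrix.ext h')
    set a := (g : GL II F).1 i j with ha
    let z : Simil.Sim Qp := ⟨Matrix.GeneralLinearGroup.scalar II (Units.mk0 a hij)⁻¹, Simil.scalar_mem_sim hg _⟩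
    have hz : Simil.act Qp z = 1 := (Simil.act_eq_one_iff hg z).2 ⟨_, rfl⟩
    obtain ⟨x, hx⟩ := exists_lift_rat hfix (by omega : 1 ≤ m) (g * z) fun k l => by
      have hval : ((g * z : Simil.Sim Qp) : GL II F).1 k l = (g : GL II F).1 k l * a⁻¹ := by
        rw [Subgroup.coe_mul, Units.val_mul]
        simp [z, Matrix.GeneralLinearGroup.scalar, Matrix.mul_diagonal]
      rw [hval, map_mul, map_inv₀, hce k l, show σ a = (c : F) * a from hce i j]
      have := c.ne_zero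
      field_simp
    have hxs : x ∈ G := MonoidHom.mem_ker.2 (Units.ext (φ.injective (by
      rw [← D.sign_lift hg hg₀, hx, map_mul, MonoidHom.mem_ker.1 hgs, sign_of_act_one hg hz, mul_one, Units.val_one,
        Units.val_one, map_one])))
    refine ⟨⟨x, hxs⟩, Subtype.ext ?_⟩
    show Simil.act Qp (D.lift x) = _
    rw [hx, map_mul, hz, mul_one]
  have hk : ψ.ker = α.ker := by
    ext ⟨x, hx⟩
    rw [MonoidHom.mem_ker, MonoidHom.mem_ker]
    show (ψ ⟨x, hx⟩ = (1 : ↥C)) ↔ (α ⟨x, hx⟩ = (1 : ↥(G.map (Simil.act Q0))))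
    rw [Subtype.ext_iff, Subtype.ext_iff]
    show Simil.act Qp (D.lift x) = 1 ↔ Simil.act Q0 x = 1
    rw [Simil.act_eq_one_iff hg, Simil.act_eq_one_iff hg₀]
    constructor
    · rintro ⟨c, hc⟩
      obtain ⟨c₀, e, h₀⟩ := scalar_of_lift hfix (by omega) x (c := (c : F)) fun v => by rw [hc, Simil.scalar_mulVec hg]
      exact ⟨Units.mk0 c₀ fun e0 => c.ne_zero (by rw [← e, e0, map_zero]),
        Units.ext (Matrix.ext_iff_mulVec.2 fun v => by rw [h₀, Simil.scalar_mulVec hg₀]; rfl)⟩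
    · rintro ⟨c, hc⟩
      refine ⟨Units.map (φ : F₀ →* F) c, Units.ext (Matrix.ext_iff_mulVec.2 fun v => ?_)⟩
      rw [D.lift_scalar x (fun w => by rw [hc, Simil.scalar_mulVec hg₀]) v, Simil.scalar_mulVec hg]
      rfl
  exact ⟨(((QuotientGroup.quotientKerEquivOfSurjective ψ hψ).symm.trans
    (QuotientGroup.quotientMulEquivOfEq hk))).trans (QuotientGroup.quotientKerEquivOfSurjective α hα)⟩

omit hfix in
/-- In characteristic two the centre of `Ω` is trivial. -/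
theorem omega_eq_one (h2 : (2 : F) = 0) (hm : 3 ≤ m) {w : Cfsg.isometryGroup F ⇑Qp}
    (hw : w ∈ Cfsg.Omega F ⇑Qp) (h : Simil.act Qp (Simil.ofIso w) = 1) : w = 1 := by
  have hcen : ∀ y ∈ Subgroup.center (Cfsg.Omega F ⇑Qp), y = 1 := fun y hy => by
    have h1 : (((y : Cfsg.isometryGroup F ⇑Qp) : GL II F) : Matrix II II F) = 1 := by
      rcases CfsgLib.OrthOrder.coe_center_Omega (nondegenerate_quadPlus m) (by simp; omega) hy with e | e
      · exact e
      · rw [e]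
        ext i j
        have h3 : ∀ a : F, -a = a := fun a => by linear_combination (-a) * h2
        rw [Matrix.neg_apply, h3]
    exact Subtype.ext (Subtype.ext (Units.ext h1))
  have h0 : (⟨w, hw⟩ : Cfsg.Omega F ⇑Qp) ∈ Subgroup.center _ := Subgroup.mem_center_iff.2 fun s => by
    have h1 := (Simil.conj_eq_act (⟨w, hw⟩ : Cfsg.Omega F ⇑Qp)).trans h
    have h2' := DFunLike.congr_fun h1 (QuotientGroup.mk s)
    rw [MulAut.conj_apply, MulAut.one_apply, ← QuotientGroup.mk_inv, ← QuotientGroup.mk_mul, ← QuotientGroup.mk_mul,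
      QuotientGroup.eq] at h2'
    have h3 := hcen _ h2'
    have h4 := mul_inv_eq_iff_eq_mul.1 (inv_mul_eq_one.1 h3)
    exact h4.symm
  exact congrArg Subtype.val (hcen _ h0)

theorem lift_omega (h2 : (2 : F) = 0) (hm : 3 ≤ m) {s : Cfsg.isometryGroup F₀ ⇑Q0} :
    s ∈ Cfsg.Omega F₀ ⇑Q0 ↔ ∃ w ∈ Cfsg.Omega F ⇑Qp, (plusFrame (m := m) hfix).lift (Simil.ofIso s) = Simil.ofIso w := by
  have hd : Nat.card F ≠ 2 ∨ Fintype.card II ≠ 4 := Or.inr (by simp; omega)
  have hd0 : Nat.card F₀ ≠ 2 ∨ Fintype.card II ≠ 4 := Or.inr (by simp; omega)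
  have h20 : (2 : F₀) = 0 := φ.injective (by rw [map_ofNat, h2, map_zero])
  obtain ⟨l, rfl⟩ := exists_eq_listGL (nondegenerate_quadPlus m) hd0 s
  obtain ⟨l', hlen, -, hl⟩ := (plusFrame (m := m) hfix).lift_list l
  rw [hl, listGL_mem_Omega (nondegenerate_quadPlus m) hd0]
  constructor
  · rintro ⟨he, -⟩
    refine ⟨_, ?_, rfl⟩
    obtain ⟨b, hb⟩ := exists_sq h2 (valueProd Qp l')
    exact (listGL_mem_Omega (nondegenerate_quadPlus m) hd l').2 ⟨hlen ▸ he, b, hb.symm⟩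
  · rintro ⟨w, hw, e⟩
    have e' : listGL Qp l' = w := Subtype.ext (congrArg (fun z : Simil.Sim Qp => (z : GL II F)) e)
    rw [← e', listGL_mem_Omega (nondegenerate_quadPlus m) hd, hlen] at hw
    obtain ⟨b, hb⟩ := exists_sq h20 (valueProd Q0 l)
    exact ⟨hw.1, b, hb.symm⟩

/-- The centraliser in characteristic two. -/
theorem centralizer_two (h2 : (2 : F) = 0) (hm : 3 ≤ m) :
    Nonempty (↥(Pr ⊓ Subgroup.centralizer {(fieldP σ : MulAut PΩ')}) ≃* ↥Pr0) := by
  have h20 : (2 : F₀) = 0 := φ.injective (by rw [map_ofNat, h2, map_zero])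
  rw [inndiag_plus_two h2 hm, inndiag_plus_two h20 hm]
  set D := plusFrame (F₀ := F₀) (m := m) hfix
  set C := Cfsg.Inn PΩ' ⊓ Subgroup.centralizer {(fieldP σ : MulAut PΩ')}
  let α : ↥(Cfsg.Omega F₀ ⇑Q0) →* ↥(Cfsg.Inn (Cfsg.POmega F₀ ⇑Q0)) :=
    (((Simil.act Q0).comp Simil.ofIso).comp (Cfsg.Omega F₀ ⇑Q0).subtype).codRestrict _ fun s =>
      (Simil.mem_inn_iff _).2 ⟨_, s.2, rfl⟩
  have hα : Function.Bijective α := by
    refine ⟨(injective_iff_map_eq_one α).2 fun s hs => ?_, fun ⟨β, hβ⟩ => ?_⟩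
    · exact Subtype.ext (omega_eq_one h20 hm s.2 (congrArg Subtype.val hs))
    · obtain ⟨w, hw, rfl⟩ := (Simil.mem_inn_iff β).1 hβ
      exact ⟨⟨w, hw⟩, rfl⟩
  let ψ : ↥(Cfsg.Omega F₀ ⇑Q0) →* ↥C :=
    ((D.T.comp Simil.ofIso).comp (Cfsg.Omega F₀ ⇑Q0).subtype).codRestrict _ fun s => by
      refine ⟨?_, T_mem_centralizer hfix _⟩
      obtain ⟨w, hw, e⟩ := (lift_omega hfix h2 hm).1 s.2
      exact (Simil.mem_inn_iff _).2 ⟨w, hw, congrArg (Simil.act Qp) e⟩
  have hψ : Function.Bijective ψ := by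
    refine ⟨(injective_iff_map_eq_one ψ).2 fun s hs => ?_, ?_⟩
    · obtain ⟨w, hw, e⟩ := (lift_omega hfix h2 hm).1 s.2
      have h1 : Simil.act Qp (D.lift (Simil.ofIso s.1)) = 1 := congrArg Subtype.val hs
      rw [e] at h1
      rw [omega_eq_one h2 hm hw h1, map_one] at e
      obtain ⟨c₀, hc, hc'⟩ := scalar_of_lift hfix (by omega) (Simil.ofIso s.1) (c := 1) fun v => by rw [e]; simp
      obtain rfl : c₀ = 1 := φ.injective (hc.trans (map_one φ).symm)
      exact Subtype.ext (Subtype.ext (Units.ext (Matrix.ext_iff_mulVec.2 fun v => (hc' v).trans (by simp))))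
    · rintro ⟨β, hβi, hβc⟩
      obtain ⟨w, hw, rfl⟩ := (Simil.mem_inn_iff β).1 hβi
      obtain ⟨g', hg', e⟩ := exists_twist σ (Simil.ofIso w)
      rw [← Subgroup.mem_centralizer_singleton_iff.1 hβc, mul_left_inj] at e
      let w' := semiO (isSemi_plus (m := m) σ) w
      have hw' : w' ∈ Cfsg.Omega F ⇑Qp := semiO_mem _ ⟨w, hw⟩
      have ew : Simil.ofIso w' = g' := Subtype.ext (Units.ext (Matrix.ext_iff_mulVec.2 fun v => by
        obtain ⟨u, rfl⟩ := semi_surjective (1 : GL II F) σ v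
        show (semiGL (1 : GL II F) σ (w : GL II F)).1 *ᵥ _ = _
        rw [semiGL_mulVec, semi_one', semi_one']
        exact (hg' u).symm))
      have h1 : w⁻¹ * w' = 1 := omega_eq_one h2 hm (mul_mem (inv_mem hw) hw')
        (by rw [map_mul, map_mul, map_inv, map_inv, ew, e, inv_mul_cancel])
      rw [← inv_mul_eq_one.1 h1] at ew
      obtain ⟨x, hx⟩ := exists_lift_rat hfix (by omega : 1 ≤ m) (Simil.ofIso w) fun i j => by
        rw [entries_of_twist hg' i j, ← ew]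
      have hQ : ∀ v : II → F₀, Qp (φ ∘ v) = φ (Q0 v) := fun v => (D.hS v).trans (one_mul _)
      have hiso : (x : GL II F₀) ∈ Cfsg.isometryGroup F₀ ⇑Q0 := mem_isometryGroup.2 fun v => φ.injective (by
        rw [← hQ, ← hQ, show φ ∘ ((x : GL II F₀).1 *ᵥ v) = (w : GL II F).1 *ᵥ (φ ∘ v) by
          have := D.lift_mulVec x v
          rw [hx] at this
          exact this.symm, mem_isometryGroup.1 w.2])
      have hs : (⟨_, hiso⟩ : Cfsg.isometryGroup F₀ ⇑Q0) ∈ Cfsg.Omega F₀ ⇑Q0 :=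
        (lift_omega hfix h2 hm).2 ⟨w, hw, hx⟩
      exact ⟨⟨_, hs⟩, Subtype.ext (congrArg (Simil.act Qp) hx)⟩
  exact ⟨(MulEquiv.ofBijective ψ hψ).symm.trans (MulEquiv.ofBijective α hα)⟩

end CfsgLib.AutPE.PlusFld
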